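import Mathlib

/-!
`p`-groups with a cyclic maximal subgroup: normal forms.
-/

set_option autoImplicit false

namespace Cfsg.Lib.Transfer.CyclicMaximal

variable {G : Type*} [Group G] [Finite G]

theorem zpow_eq_iff {a : G} {x y : ℤ} : a ^ x = a ^ y ↔ (orderOf a : ℤ) ∣ y - x := by
  rw [← Int.modEq_iff_dvd, zpow_eq_zpow_iff_modEq]

/-- The basic generators. -/
theorem setup {p : ℕ} [hp : Fact p.Prime] {n : ℕ} (hn : 1 ≤ n) (hG : Nat.card G = p ^ n) (C : Subgroup G)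
    (hC : IsCyclic C) (hCi : C.index = p) (hna : ∃ x y : G, x * y ≠ y * x) :
    ∃ (a b : G) (r i : ℤ), orderOf a = p ^ (n - 1) ∧ b ∉ Subgroup.zpowers a ∧ b * a * b⁻¹ = a ^ r ∧
      b ^ p = a ^ i ∧ (orderOf a : ℤ) ∣ r ^ p - 1 ∧ (orderOf a : ℤ) ∣ r * i - i ∧ ¬ (orderOf a : ℤ) ∣ r - 1 := by
  obtain ⟨g, hg⟩ := hC.exists_generator
  set a : G := (g : G) with ha
  have hCa : C = Subgroup.zpowers a := by
    refine le_antisymm (fun x hx => ?_) (Subgroup.zpowers_le.2 g.2)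
    obtain ⟨k, hk⟩ := hg ⟨x, hx⟩
    exact ⟨k, congrArg Subtype.val hk⟩
  have hGp : IsPGroup p G := IsPGroup.of_card hG
  have hnormal : C.Normal := Subgroup.normal_of_index_eq_minFac_card (by
    rw [hCi, hG, Nat.pow_minFac (by omega), hp.out.minFac_eq])
  have hord : orderOf a = p ^ (n - 1) := by
    have h := C.card_mul_index
    rw [hCi, hG, hCa, Nat.card_zpowers] at h
    refine Nat.eq_of_mul_eq_mul_right hp.out.pos (h.trans ?_)
    rw [← pow_succ]; congr 1; omega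
  obtain ⟨b, hb⟩ : ∃ b : G, b ∉ C := by
    by_contra h
    push Not at h
    have : C = ⊤ := eq_top_iff.2 fun x _ => h x
    rw [this, Subgroup.index_top] at hCi
    exact hp.out.ne_one hCi.symm
  obtain ⟨r, hr⟩ : b * a * b⁻¹ ∈ Subgroup.zpowers a := hCa ▸ hnormal.conj_mem a (hCa ▸ Subgroup.mem_zpowers a) b
  simp only at hr
  haveI := hnormal
  obtain ⟨i, hi⟩ : b ^ p ∈ Subgroup.zpowers a := hCa ▸ (hCi ▸ C.pow_index_mem b)
  simp only at hi
  have hconj : ∀ x : ℤ, b * a ^ x * b⁻¹ = a ^ (r * x) := fun x => by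
    rw [← conj_zpow, ← hr, ← zpow_mul]
  refine ⟨a, b, r, i, hord, hCa ▸ hb, hr.symm, hi.symm, ?_, ?_, fun h => ?_⟩
  · have hiter : ∀ j : ℕ, b ^ j * a * (b ^ j)⁻¹ = a ^ (r ^ j) := by
      intro j
      induction j with
      | zero => simp
      | succ j ih =>
        calc b ^ (j + 1) * a * (b ^ (j + 1))⁻¹ = b * (b ^ j * a * (b ^ j)⁻¹) * b⁻¹ := by rw [pow_succ']; group
          _ = _ := by rw [ih, hconj, pow_succ']
    have h1 := hiter p
    rw [← hi] at h1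
    have h2 : a ^ i * a * (a ^ i)⁻¹ = a ^ (1 : ℤ) := by group
    rw [h2, zpow_eq_iff] at h1
    exact h1
  · have h1 := hconj i
    have h2 : b * a ^ i * b⁻¹ = a ^ i := by rw [hi, ← pow_succ']; group
    rw [h2, zpow_eq_iff] at h1
    exact h1
  · -- otherwise `G` is commutative
    have hab : Commute b a := by
      have h1 : a ^ r = a ^ (1 : ℤ) := by rw [zpow_eq_iff, ← dvd_neg, neg_sub]; exact h
      have h2 : b * a * b⁻¹ = a := hr.symm.trans (h1.trans (zpow_one a))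
      exact mul_inv_eq_iff_eq_mul.1 h2
    have htop : Subgroup.closure ({a, b} : Set G) = ⊤ := by
      set L := Subgroup.closure ({a, b} : Set G)
      have hCL : C ≤ L := hCa ▸ Subgroup.zpowers_le.2 (Subgroup.subset_closure (Set.mem_insert a _))
      have h2 := Subgroup.relIndex_mul_index hCL
      rw [hCi] at h2
      rcases (Nat.dvd_prime hp.out).1 (Dvd.intro_left _ h2) with h3 | h3
      · exact Subgroup.index_eq_one.1 h3
      · exfalso
        rw [h3, Nat.mul_eq_right hp.out.pos.ne'] at h2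
        exact hb (Subgroup.relIndex_eq_one.1 h2 (Subgroup.subset_closure (Set.mem_insert_of_mem a rfl)))
    obtain ⟨x, y, hxy⟩ := hna
    refine hxy ?_
    haveI : IsMulCommutative (Subgroup.closure ({a, b} : Set G)) := Subgroup.isMulCommutative_closure (by
      rintro u (rfl | rfl) v (rfl | rfl)
      exacts [rfl, hab.symm.eq, hab.eq, rfl])
    exact Subgroup.mul_comm_of_mem_isMulCommutative (Subgroup.closure ({a, b} : Set G)) (htop ▸ Subgroup.mem_top x)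
      (htop ▸ Subgroup.mem_top y)

theorem exists_cube_expand (m : ℤ) : ∀ j : ℕ, ∃ t : ℤ, (1 + m) ^ j = 1 + j * m + (j.choose 2 : ℕ) * m ^ 2 + t * m ^ 3 := by
  intro j
  induction j with
  | zero => exact ⟨0, by simp⟩
  | succ j ih =>
    obtain ⟨t, ht⟩ := ih
    refine ⟨t * (1 + m) + (j.choose 2 : ℕ), ?_⟩
    have hc : ((j + 1).choose 2 : ℕ) = j + j.choose 2 := by
      rw [Nat.choose_succ_succ', Nat.choose_one_right]
    rw [pow_succ, ht, hc]; push_cast; ring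

theorem dvd_of_pow_sub_one {p : ℕ} (hp : p.Prime) (h2 : p ≠ 2) {N : ℕ} {r : ℤ}
    (h : (p : ℤ) ^ (N + 1) ∣ r ^ p - 1) : (p : ℤ) ^ N ∣ r - 1 := by
  obtain ⟨m, rfl⟩ : ∃ m, r = 1 + m := ⟨r - 1, by ring⟩
  rw [add_sub_cancel_left]
  obtain ⟨t, ht⟩ := exists_cube_expand m p
  have hc : (p : ℤ) ∣ (p.choose 2 : ℕ) :=
    Int.natCast_dvd_natCast.2 (hp.dvd_choose_self two_ne_zero (lt_of_le_of_ne hp.two_le (Ne.symm h2)))
  have hstep : ∀ e, 1 ≤ e → e ≤ N → (p : ℤ) ^ e ∣ m := by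
    intro e he
    induction e, he using Nat.le_induction with
    | base =>
      intro hN
      haveI := Fact.mk hp
      have h1 : (p : ℤ) ∣ (1 + m) ^ p - 1 := dvd_trans (dvd_pow_self _ (by omega)) h
      rw [pow_one, ← ZMod.intCast_zmod_eq_zero_iff_dvd]
      rw [← ZMod.intCast_zmod_eq_zero_iff_dvd] at h1
      push_cast at h1
      rw [ZMod.pow_card] at h1
      simpa using h1
    | succ e he ih =>
      intro hN
      have hm := ih (by omega)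
      have h3 : (p : ℤ) ^ (e + 2) ∣ (p : ℤ) * m := by
        have hA : (p : ℤ) ^ (e + 2) ∣ (p.choose 2 : ℕ) * m ^ 2 := by
          have := mul_dvd_mul hc (pow_dvd_pow_of_dvd hm 2)
          rw [← pow_mul, ← pow_succ'] at this
          exact (pow_dvd_pow _ (by omega)).trans this
        have hB : (p : ℤ) ^ (e + 2) ∣ t * m ^ 3 := by
          have := pow_dvd_pow_of_dvd hm 3
          rw [← pow_mul] at this
          exact ((pow_dvd_pow _ (by omega)).trans this).mul_left t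
        have hD : (p : ℤ) ^ (e + 2) ∣ (1 + m) ^ p - 1 := (pow_dvd_pow _ (by omega)).trans h
        rw [show (p : ℤ) * m = ((1 + m) ^ p - 1) - (p.choose 2 : ℕ) * m ^ 2 - t * m ^ 3 by rw [ht]; ring]
        exact dvd_sub (dvd_sub hD hA) hB
      rw [pow_succ'] at h3
      exact Int.dvd_of_mul_dvd_mul_left (by exact_mod_cast hp.ne_zero) h3
  rcases Nat.eq_zero_or_pos N with rfl | hN
  · simp
  · exact hstep N hN le_rfl

/-- The odd case. -/
theorem odd_case {p : ℕ} [hp : Fact p.Prime] (hp2 : p ≠ 2) {n : ℕ} (hn : 3 ≤ n) (hG : Nat.card G = p ^ n)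
    (C : Subgroup G) (hC : IsCyclic C) (hCi : C.index = p) (hna : ∃ x y : G, x * y ≠ y * x) :
    ∃ a b : G, orderOf a = p ^ (n - 1) ∧ orderOf b = p ∧ b ∉ Subgroup.zpowers a ∧ b * a * b⁻¹ = a ^ (1 + p ^ (n - 2)) := by
  obtain ⟨a, b, r, i, hord, hb, hr, hi, hrp, -, hr1⟩ := setup (by omega) hG C hC hCi hna
  rw [hord] at hrp hr1
  push_cast at hrp hr1
  set Q : ℤ := (p : ℤ) ^ (n - 2) with hQ
  have hN : ((p : ℤ) ^ (n - 1)) = p * Q := by rw [hQ, ← pow_succ']; congr 1; omega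
  rw [hN] at hrp hr1
  have hk' : Q ∣ r - 1 := dvd_of_pow_sub_one hp.out hp2 (by rw [pow_succ', ← hQ]; exact hrp)
  obtain ⟨k, hk⟩ := hk'
  have hpk : ¬ (p : ℤ) ∣ k := fun h => hr1 (by rw [hk, mul_comm (p : ℤ) Q]; exact mul_dvd_mul_left _ h)
  obtain ⟨j, hj⟩ : ∃ j : ℕ, (p : ℤ) ∣ j * k - 1 := by
    have hk0 : (k : ZMod p) ≠ 0 := fun h => hpk ((ZMod.intCast_zmod_eq_zero_iff_dvd k p).1 h)
    refine ⟨((k : ZMod p)⁻¹).val, (ZMod.intCast_zmod_eq_zero_iff_dvd _ p).1 ?_⟩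
    push_cast
    rw [ZMod.natCast_zmod_val, inv_mul_cancel₀ hk0, sub_self]
  have hQQ : (p : ℤ) * Q ∣ Q ^ 2 := by
    rw [← hN, hQ, ← pow_mul]; exact pow_dvd_pow _ (by omega)
  have heqiff : ∀ x y : ℤ, a ^ x = a ^ y ↔ (p : ℤ) * Q ∣ y - x := fun x y => by
    rw [zpow_eq_iff, hord, ← hN]; push_cast; rfl
  set b₁ := b ^ j with hb₁
  have hb₁a : b₁ * a * b₁⁻¹ = a ^ (1 + Q) := by
    have hiter : ∀ j : ℕ, b ^ j * a * (b ^ j)⁻¹ = a ^ (r ^ j) := by
      intro j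
      induction j with
      | zero => simp
      | succ j ih =>
        calc b ^ (j + 1) * a * (b ^ (j + 1))⁻¹ = b * (b ^ j * a * (b ^ j)⁻¹) * b⁻¹ := by rw [pow_succ']; group
          _ = _ := by rw [ih, ← conj_zpow, hr, ← zpow_mul, pow_succ']
    rw [hb₁, hiter, heqiff]
    obtain ⟨t, ht⟩ := exists_cube_expand (r - 1) j
    rw [add_sub_cancel] at ht
    rw [ht, hk, show (1 + Q) - (1 + j * (Q * k) + (j.choose 2 : ℕ) * (Q * k) ^ 2 + t * (Q * k) ^ 3) =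
      -(Q * (j * k - 1)) - Q ^ 2 * ((j.choose 2 : ℕ) * k ^ 2 + t * Q * k ^ 3) by ring]
    exact dvd_sub (dvd_neg.2 (by rw [mul_comm (p : ℤ) Q]; exact mul_dvd_mul_left _ hj)) (hQQ.mul_right _)
  have hb₁C : b₁ ∉ Subgroup.zpowers a := by
    intro h
    obtain ⟨s, hs⟩ := h
    simp only at hs
    rw [← hs] at hb₁a
    have h1 : a ^ (1 : ℤ) = a ^ (1 + Q) := by rw [← hb₁a]; group
    rw [heqiff, add_sub_cancel_left, ← hN, hQ] at h1
    have := Int.le_of_dvd (pow_pos (by exact_mod_cast hp.out.pos) _) h1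
    rw [hN] at this
    have hQpos : 0 < Q := pow_pos (by exact_mod_cast hp.out.pos) _
    have := hp.out.two_le
    nlinarith
  have hmove : ∀ x : ℤ, b₁ * a ^ x * b₁⁻¹ = a ^ ((1 + Q) * x) := fun x => by rw [← conj_zpow, hb₁a, ← zpow_mul]
  obtain ⟨i₁, hi₁⟩ : ∃ i₁ : ℤ, b₁ ^ p = a ^ i₁ := ⟨i * j, by rw [hb₁, ← pow_mul, mul_comm, pow_mul, hi, ← zpow_natCast, ← zpow_mul]⟩
  obtain ⟨l, hl⟩ : (p : ℤ) ∣ i₁ := by
    have h1 := hmove i₁
    rw [← hi₁, show b₁ * b₁ ^ p * b₁⁻¹ = b₁ ^ p by rw [← pow_succ', pow_succ]; group, hi₁, heqiff,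
      show (1 + Q) * i₁ - i₁ = Q * i₁ by ring, mul_comm (p : ℤ) Q] at h1
    exact Int.dvd_of_mul_dvd_mul_left (pow_ne_zero _ (by exact_mod_cast hp.out.ne_zero)) h1
  have hpow : ∀ (x : ℤ) (s : ℕ), (a ^ x * b₁) ^ s = a ^ (x * (s + Q * (s.choose 2 : ℕ))) * b₁ ^ s := by
    intro x s
    induction s with
    | zero => simp
    | succ s ih =>
      have hsw : ∀ y : ℤ, b₁ * a ^ y = a ^ ((1 + Q) * y) * b₁ := fun y => mul_inv_eq_iff_eq_mul.1 (hmove y)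
      rw [pow_succ', ih, ← mul_assoc, mul_assoc (a ^ x), hsw, pow_succ' b₁ s]
      simp only [← mul_assoc, ← zpow_add]
      congr 2
      rw [heqiff]
      have hc : ((s + 1).choose 2 : ℕ) = s + s.choose 2 := by rw [Nat.choose_succ_succ', Nat.choose_one_right]
      rw [hc]; push_cast
      rw [show x * ((s : ℤ) + 1 + Q * (s + (s.choose 2 : ℕ))) - (x + (1 + Q) * x * (s + Q * (s.choose 2 : ℕ))) =
        -(Q ^ 2 * (x * (s.choose 2 : ℕ))) by ring]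
      exact dvd_neg.2 (hQQ.mul_right _)
  refine ⟨a, a ^ (-l) * b₁, hord, orderOf_eq_prime ?_ ?_, fun h => ?_, ?_⟩
  · rw [hpow, hi₁, hl, ← zpow_add, ← zpow_zero a, heqiff]
    obtain ⟨c, hc⟩ : (p : ℤ) ∣ (p.choose 2 : ℕ) :=
      Int.natCast_dvd_natCast.2 (hp.out.dvd_choose_self two_ne_zero (lt_of_le_of_ne hp.out.two_le (Ne.symm hp2)))
    rw [hc, show 0 - (-l * ((p : ℤ) + Q * (p * c)) + p * l) = p * Q * (l * c) by ring]
    exact dvd_mul_right _ _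
  · intro h
    exact hb₁C ⟨l, by simp only; rw [zpow_neg, inv_mul_eq_one] at h; exact h⟩
  · exact hb₁C (by simpa using (Subgroup.zpowers a).mul_mem (zpow_mem (Subgroup.mem_zpowers a) l) h)
  · rw [show a ^ (-l) * b₁ * a * (a ^ (-l) * b₁)⁻¹ = a ^ (-l) * (b₁ * a * b₁⁻¹) * (a ^ (-l))⁻¹ by group, hb₁a,
      ← zpow_natCast]
    push_cast
    rw [← hQ]; group

theorem two_residue {e : ℕ} {r : ℤ} (h : (2 : ℤ) ^ (e + 2) ∣ r ^ 2 - 1) :
    (2 : ℤ) ^ (e + 2) ∣ r - 1 ∨ (2 : ℤ) ^ (e + 2) ∣ r + 1 ∨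
      (2 : ℤ) ^ (e + 2) ∣ r - (1 + 2 ^ (e + 1)) ∨ (2 : ℤ) ^ (e + 2) ∣ r - (2 ^ (e + 1) - 1) := by
  have h4 : (2 : ℤ) ∣ r ^ 2 - 1 := (dvd_pow_self _ (by omega)).trans h
  have hodd : Odd r := by
    rcases Int.even_or_odd r with ⟨c, rfl⟩ | ho
    · exfalso; obtain ⟨d, hd⟩ := h4; ring_nf at hd; omega
    · exact ho
  obtain ⟨m, rfl⟩ := hodd
  have h1 : (2 : ℤ) ^ e ∣ m * (m + 1) := by
    rw [show (2 * m + 1) ^ 2 - 1 = 4 * (m * (m + 1)) by ring, pow_add,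
      show (2 : ℤ) ^ e * 2 ^ 2 = 4 * 2 ^ e by ring] at h
    exact Int.dvd_of_mul_dvd_mul_left (by norm_num) h
  have hprime : Prime (2 : ℤ) := Int.prime_two
  rcases Int.even_or_odd m with hm | hm
  · have h2 : (2 : ℤ) ^ e ∣ m := hprime.pow_dvd_of_dvd_mul_right e (by
      rintro ⟨d, hd⟩; obtain ⟨c, rfl⟩ := hm; omega) h1
    obtain ⟨k, rfl⟩ := h2
    rcases Int.even_or_odd k with ⟨c, rfl⟩ | ⟨c, rfl⟩
    · left; exact ⟨c, by ring⟩
    · right; right; left; exact ⟨c, by ring⟩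
  · have h2 : (2 : ℤ) ^ e ∣ m + 1 := hprime.pow_dvd_of_dvd_mul_left e (by
      rintro ⟨d, hd⟩; obtain ⟨c, rfl⟩ := hm; omega) h1
    obtain ⟨k, hk⟩ := h2
    rcases Int.even_or_odd k with ⟨c, rfl⟩ | ⟨c, rfl⟩
    · right; left; exact ⟨c, by linear_combination 2 * hk⟩
    · right; right; right; exact ⟨c, by linear_combination 2 * hk⟩

/-- The case `p = 2`. -/
theorem two_case {n : ℕ} (hn : 3 ≤ n) (hG : Nat.card G = 2 ^ n) (C : Subgroup G) (hC : IsCyclic C)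
    (hCi : C.index = 2) (hna : ∃ x y : G, x * y ≠ y * x) :
    ∃ a b : G, orderOf a = 2 ^ (n - 1) ∧ b ∉ Subgroup.zpowers a ∧ ((b ^ 2 = 1 ∧ b * a * b⁻¹ = a⁻¹) ∨
      (b ^ 2 = a ^ (2 ^ (n - 2)) ∧ b * a * b⁻¹ = a⁻¹) ∨
      (4 ≤ n ∧ b ^ 2 = 1 ∧ b * a * b⁻¹ = a ^ (1 + 2 ^ (n - 2))) ∨
      (4 ≤ n ∧ b ^ 2 = 1 ∧ b * a * b⁻¹ = a ^ (2 ^ (n - 2) - 1))) := by
  haveI := Fact.mk Nat.prime_two
  obtain ⟨a, b, r, i, hord, hb, hr, hi, hrp, hri, hr1⟩ := setup (by omega) hG C hC hCi hna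
  obtain ⟨e, rfl⟩ : ∃ e, n = e + 3 := ⟨n - 3, by omega⟩
  rw [show e + 3 - 1 = e + 2 from rfl] at hord
  rw [show e + 3 - 1 = e + 2 from rfl, show e + 3 - 2 = e + 1 from rfl]
  rw [hord] at hrp hri hr1
  push_cast at hrp hri hr1
  have heq : ∀ x y : ℤ, a ^ x = a ^ y ↔ (2 : ℤ) ^ (e + 2) ∣ y - x := fun x y => by
    rw [zpow_eq_iff, hord]; push_cast; rfl
  have hsw : ∀ x : ℤ, (a ^ x * b) ^ 2 = a ^ (x + r * x + i) := fun x => by
    rw [sq, show a ^ x * b * (a ^ x * b) = a ^ x * (b * a ^ x * b⁻¹) * (b * b) by group,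
      ← conj_zpow, hr, ← zpow_mul, ← sq, hi, ← zpow_add, ← zpow_add]
  have hnew : ∀ x : ℤ, a ^ x * b ∉ Subgroup.zpowers a ∧ (a ^ x * b) * a * (a ^ x * b)⁻¹ = a ^ r := fun x =>
    ⟨fun h => hb (by simpa using (Subgroup.zpowers a).mul_mem ((Subgroup.zpowers a).inv_mem (zpow_mem (Subgroup.mem_zpowers a) x)) h),
      by rw [show a ^ x * b * a * (a ^ x * b)⁻¹ = a ^ x * (b * a * b⁻¹) * (a ^ x)⁻¹ by group, hr]; group⟩
  have hhalf : ∀ y : ℤ, (2 : ℤ) ^ (e + 1) ∣ y → a ^ y = 1 ∨ a ^ y = a ^ ((2 : ℕ) ^ (e + 1)) := by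
    rintro y ⟨c, rfl⟩
    rcases Int.even_or_odd c with ⟨d, rfl⟩ | ⟨d, rfl⟩
    · left; rw [← zpow_zero a, heq]; exact ⟨-d, by ring⟩
    · right; rw [← zpow_natCast, heq]; push_cast; exact ⟨-d, by ring⟩
  rcases two_residue hrp with h | h | h | h
  · exact absurd h hr1
  · have hinv : b * a * b⁻¹ = a⁻¹ := by rw [hr, ← zpow_neg_one, heq, ← dvd_neg]; simpa [add_comm] using h
    have h2i : (2 : ℤ) ^ (e + 1) ∣ i := by
      have h3 : (2 : ℤ) ^ (e + 2) ∣ 2 * i := by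
        rw [show 2 * i = (r + 1) * i - (r * i - i) by ring]; exact dvd_sub (h.mul_right i) hri
      rw [pow_succ'] at h3
      exact Int.dvd_of_mul_dvd_mul_left (by norm_num) h3
    rcases hhalf i h2i with h4 | h4
    · exact ⟨a, b, hord, hb, Or.inl ⟨hi.trans h4, hinv⟩⟩
    · exact ⟨a, b, hord, hb, Or.inr (Or.inl ⟨hi.trans h4, hinv⟩)⟩
  · rcases Nat.eq_zero_or_pos e with rfl | he
    · -- `r = -1` modulo four
      have hinv : b * a * b⁻¹ = a⁻¹ := by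
        rw [hr, ← zpow_neg_one, heq]; obtain ⟨c, hc⟩ := h; exact ⟨-c - 1, by linear_combination -hc⟩
      have h2i : (2 : ℤ) ^ (0 + 1) ∣ i := by
        obtain ⟨c, hc⟩ := h
        obtain ⟨d, hd⟩ := hri
        obtain rfl : r = 4 * c + 3 := by linear_combination hc
        ring_nf at hd ⊢; omega
      rcases hhalf i h2i with h4 | h4
      · exact ⟨a, b, hord, hb, Or.inl ⟨hi.trans h4, hinv⟩⟩
      · exact ⟨a, b, hord, hb, Or.inr (Or.inl ⟨hi.trans h4, hinv⟩)⟩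
    obtain ⟨f, rfl⟩ : ∃ f, e = f + 1 := ⟨e - 1, by omega⟩
    obtain ⟨c, hc⟩ := h
    obtain ⟨l, hl⟩ : (2 : ℤ) ∣ i := by
      obtain ⟨d, hd⟩ := hri
      have h3 : (2 : ℤ) ^ (f + 1 + 1) * (i + 2 * c * i) = 2 ^ (f + 1 + 1) * (2 * d) := by
        linear_combination hd - i * hc
      have := mul_left_cancel₀ (pow_ne_zero _ two_ne_zero) h3
      exact ⟨d - c * i, by linarith⟩
    obtain ⟨h1, h2⟩ := hnew (-l * (1 - 2 ^ (f + 1)))
    refine ⟨a, _, hord, h1, Or.inr (Or.inr (Or.inl ⟨by omega, ?_, ?_⟩))⟩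
    · rw [hsw, ← zpow_zero a, heq]
      refine ⟨(-(2 : ℤ) ^ f) * l + c * l * (1 - 2 ^ (f + 1)), ?_⟩
      linear_combination l * (1 - 2 ^ (f + 1)) * hc - hl
    · rw [h2, ← zpow_natCast, heq]; push_cast; exact ⟨-c, by linear_combination -hc⟩
  · rcases Nat.eq_zero_or_pos e with rfl | he
    · exact absurd (by obtain ⟨c, hc⟩ := h; exact ⟨c, by linear_combination hc⟩) hr1
    obtain ⟨f, rfl⟩ : ∃ f, e = f + 1 := ⟨e - 1, by omega⟩
    obtain ⟨c, hc⟩ := h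
    have h2i : (2 : ℤ) ^ (f + 1 + 1) ∣ i := by
      obtain ⟨d, hd⟩ := hri
      have h3 : (2 : ℤ) * (i * ((2 : ℤ) ^ (f + 1) * (2 * c + 1) - 1)) = 2 * (2 ^ (f + 1 + 1) * d) := by
        linear_combination hd - i * hc
      have h4 := mul_left_cancel₀ two_ne_zero h3
      refine Int.prime_two.pow_dvd_of_dvd_mul_right _ ?_ ⟨d, h4⟩
      rintro ⟨g, hg⟩
      have h5 : (2 : ℤ) * (2 ^ f * (2 * c + 1) - g) = 1 := by rw [pow_succ] at hg; linear_combination hg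
      omega
    have hx : ∃ x : ℤ, a ^ (x + r * x + i) = 1 := by
      rcases hhalf i h2i with h4 | h4
      · exact ⟨0, by simpa using h4⟩
      · refine ⟨1, ?_⟩
        rw [show (1 : ℤ) + r * 1 + i = (1 + r) + i by ring, zpow_add, h4, ← zpow_natCast, ← zpow_add, ← zpow_zero a, heq]
        push_cast
        exact ⟨-c - 1, by linear_combination -hc⟩
    obtain ⟨x, hx⟩ := hx
    obtain ⟨h1, h2⟩ := hnew x
    refine ⟨a, _, hord, h1, Or.inr (Or.inr (Or.inr ⟨by omega, (hsw x).trans hx, ?_⟩))⟩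
    rw [h2, ← zpow_natCast, Nat.cast_sub Nat.one_le_two_pow, heq]
    push_cast
    exact ⟨-c, by linear_combination -hc⟩

end Cfsg.Lib.Transfer.CyclicMaximal
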