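import Mathlib
import Cfsg.Prelude.Def_Transfer
import Cfsg.Agent.Lib.Yoshida.Wreath
import Cfsg.Agent.Lib.Solv.PGroupBasic
import Cfsg.Agent.Lib.PLocal.TransferDegree
import Cfsg.Agent.Lib.Transfer.GroupHyperfocal

/-!
The Hall-Wielandt theorem: a weakly closed subgroup acting with small Engel degree on a Sylow
subgroup has a normalizer controlling transfer and the p-residual.
-/

set_option autoImplicit false
set_option linter.style.haveILetI false
set_option linter.unusedVariables false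

open scoped Classical commutatorElement

namespace Cfsg.Lib.Transfer.HallWielandt

open Subgroup

universe u

variable {G : Type u} [Group G] {p : ℕ}

/-- A product over a set split into cycles of prime length each of product one. -/
theorem prod_eq_one_of_cycles [hp : Fact p.Prime] {X : Type*} [Fintype X] {A : Type*} [CommGroup A]
    (σ : Equiv.Perm X) (f : X → A) (hσ : ∀ q, (σ ^ p) q = q) (hne : ∀ q, σ q ≠ q)
    (hf : ∀ q, ∏ i ∈ Finset.range p, f ((σ ^ i) q) = 1) : ∏ q, f q = 1 := by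
  letI := Fintype.ofFinite (Quotient (MulAction.orbitRel (Subgroup.zpowers σ) X))
  let π : X → Quotient (MulAction.orbitRel (Subgroup.zpowers σ) X) := Quotient.mk''
  rw [← Finset.prod_fiberwise Finset.univ π f]
  refine Finset.prod_eq_one fun o _ => ?_
  set q := o.out
  have hper : Function.minimalPeriod (fun y => σ • y) q = p := by
    have h1 : Function.minimalPeriod (fun y => σ • y) q ∣ p :=
      MulAction.pow_smul_eq_iff_minimalPeriod_dvd.1 (hσ q)
    refine ((Nat.dvd_prime hp.out).1 h1).resolve_left fun h => hne q ?_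
    have h2 := MulAction.pow_smul_eq_iff_minimalPeriod_dvd (a := σ) (b := q) (n := 1)
    rw [pow_one] at h2
    exact h2.2 h.dvd
  have hset : Finset.univ.filter (fun y => π y = o) = (Finset.range p).image fun i => (σ ^ i) q := by
    ext y
    simp only [Finset.mem_filter, Finset.mem_univ, true_and, Finset.mem_image, Finset.mem_range]
    constructor
    · intro hy
      have hmem : y ∈ MulAction.orbit (Subgroup.zpowers σ) q := by
        rw [← MulAction.orbitRel_apply, ← Quotient.eq'']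
        exact hy.trans (Quotient.out_eq' o).symm
      obtain ⟨⟨g, hg⟩, hgy⟩ := hmem
      obtain ⟨k, rfl⟩ := Submonoid.mem_powers_iff _ _ |>.1 ((mem_powers_iff_mem_zpowers).2 hg)
      refine ⟨k % p, Nat.mod_lt _ hp.out.pos, ?_⟩
      have := MulAction.pow_smul_mod_minimalPeriod σ k (b := q)
      rw [hper] at this
      exact this.trans hgy
    · rintro ⟨i, -, rfl⟩
      show π _ = o
      refine (Quotient.sound' ?_).trans (Quotient.out_eq' o)
      exact ⟨⟨σ ^ i, Subgroup.npow_mem_zpowers σ i⟩, rfl⟩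
  rw [hset, Finset.prod_image fun i hi j hj h => ?_, hf q]
  rw [Finset.mem_coe, Finset.mem_range] at hi hj
  have h3 : (fun y => σ • y)^[i] q = (fun y => σ • y)^[j] q := by
    rw [smul_iterate_apply, smul_iterate_apply]; exact h
  exact Function.iterate_injOn_Iio_minimalPeriod (Set.mem_Iio.2 (hper.symm ▸ hi)) (Set.mem_Iio.2 (hper.symm ▸ hj)) h3

/-- The orbit sum of an additive map vanishes when it kills the iterated commutators. -/
theorem sum_iterate_zero [Fact p.Prime] {U : Type*} [Group U] {Y : Type*} [AddCommGroup Y]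
    (a : U →* U) (D : U → Y) (hD : ∀ x y, D (x * y) = D x + D y) (hp : ∀ x, p • D x = 0)
    (hd : ∀ x, D ((fun y => y⁻¹ * a y)^[p - 1] x) = 0) (x : U) :
    ∑ i ∈ Finset.range p, D (a^[i] x) = 0 := by
  let R : AddMonoid.End (U → Y) :=
    { toFun := fun f y => f (a y)
      map_zero' := rfl
      map_add' := fun _ _ => rfl }
  have hRi : ∀ (i : ℕ) (f : U → Y) (y : U), (R ^ i) f y = f (a^[i] y) := by
    intro i f
    induction i with
    | zero => intro y; rfl
    | succ i ih =>
      intro y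
      rw [pow_succ', Function.iterate_succ_apply]
      show (R ^ i) f (a y) = _
      rw [ih]
  have hadd : ∀ (k : ℕ) (y w : U), ((R - 1) ^ k) D (y * w) = ((R - 1) ^ k) D y + ((R - 1) ^ k) D w := by
    intro k
    induction k with
    | zero => exact hD
    | succ k ih =>
      intro y w
      rw [pow_succ']
      show ((R - 1) ^ k) D (a (y * w)) - ((R - 1) ^ k) D (y * w) =
        ((R - 1) ^ k) D (a y) - ((R - 1) ^ k) D y + (((R - 1) ^ k) D (a w) - ((R - 1) ^ k) D w)
      rw [map_mul, ih, ih]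
      abel
  have hdiff : ∀ (k : ℕ) (y : U), ((R - 1) ^ k) D y = D ((fun y => y⁻¹ * a y)^[k] y) := by
    intro k
    induction k with
    | zero => intro y; rfl
    | succ k ih =>
      intro y
      rw [Function.iterate_succ_apply, ← ih, hadd, pow_succ']
      show ((R - 1) ^ k) D (a y) - ((R - 1) ^ k) D y = _
      have h2 := hadd k y⁻¹ y
      have h1 := hadd k 1 1
      rw [mul_one, left_eq_add] at h1
      rw [inv_mul_cancel, h1] at h2
      rw [eq_neg_of_add_eq_zero_left h2.symm, sub_eq_add_neg, add_comm]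
  obtain ⟨b, hb⟩ := Cfsg.Lib.PLocal.TransferControl.exists_sum_eq (p := p) R
  have h1 : ((R - 1) ^ (p - 1)) D = 0 := funext fun y => by rw [hdiff]; exact hd y
  have h2 : ((p : AddMonoid.End (U → Y)) * b) D = 0 := by
    rw [Nat.cast_comm]
    show b ((p : AddMonoid.End (U → Y)) D) = 0
    rw [AddMonoid.End.natCast_apply, show p • D = 0 from funext fun y => hp y, map_zero]
  have h3 := congrFun (DFunLike.congr_fun hb D) x
  rw [show ((R - 1) ^ (p - 1) + (p : AddMonoid.End (U → Y)) * b) D =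
    ((R - 1) ^ (p - 1)) D + ((p : AddMonoid.End (U → Y)) * b) D from rfl, h1, h2, add_zero] at h3
  have h4 : (∑ i ∈ Finset.range p, R ^ i) D x = ∑ i ∈ Finset.range p, (R ^ i) D x := by
    rw [show (∑ i ∈ Finset.range p, R ^ i) D = ∑ i ∈ Finset.range p, (R ^ i) D from
      AddMonoidHom.finsetSum_apply (fun i => R ^ i) (Finset.range p) D, Finset.sum_apply]
  rw [h4] at h3
  rw [← h3.trans (Pi.zero_apply x)]
  exact Finset.sum_congr rfl fun i _ => (hRi i D x).symm

open Cfsg.Lib.Yoshida in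
/-- When the longer orbits give `1` the transfer is the product over the fixed cosets. -/
theorem transfer_eq_prod_fixed [Finite G] [hp : Fact p.Prime] {A : Type*} [CommGroup A] {H : Subgroup G}
    [Fintype (G ⧸ H)] (γ : H →* A) (x : G) (hx : ∃ j : ℕ, x ^ p ^ j = 1)
    (hvan : ∀ (k : ℕ) (a : G) (h : a⁻¹ * x ^ k * a ∈ H), p ∣ k → γ ⟨_, h⟩ = 1) :
    MonoidHom.transfer γ x = ∏ q : G ⧸ H, fixedVal γ x q := by
  letI := Fintype.ofFinite (Quotient (MulAction.orbitRel (Subgroup.zpowers x) (G ⧸ H)))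
  let π : G ⧸ H → Quotient (MulAction.orbitRel (Subgroup.zpowers x) (G ⧸ H)) := Quotient.mk''
  rw [MonoidHom.transfer_eq_prod_quotient_orbitRel_zpowers_quot,
    ← Finset.prod_fiberwise Finset.univ π (fixedVal γ x)]
  refine Finset.prod_congr (Finset.ext fun _ => by simp) fun o _ => ?_
  have hfix : ∀ q : G ⧸ H, fixedVal γ x q ≠ 1 → x • q = q := by
    intro q hq
    unfold fixedVal at hq
    split_ifs at hq with h
    · conv_lhs => rw [← QuotientGroup.out_eq' q]
      rw [MulAction.Quotient.smul_mk]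
      conv_rhs => rw [← QuotientGroup.out_eq' q]
      refine QuotientGroup.eq.2 ?_
      have := inv_mem h
      simpa [mul_assoc] using this
    · exact absurd rfl hq
  have horb : ∀ q, π q = o → q ∈ MulAction.orbit (Subgroup.zpowers x) o.out := fun q hq => by
    rw [← MulAction.orbitRel_apply, ← Quotient.eq'']
    exact hq.trans (Quotient.out_eq' o).symm
  have hper : ∀ q : G ⧸ H, x • q = q → q ∈ MulAction.orbit (Subgroup.zpowers x) o.out →
      q = o.out := by
    intro q hq hmem
    obtain ⟨g, hg⟩ := MulAction.mem_orbit_symm.1 hmem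
    have hstab : Subgroup.zpowers x ≤ MulAction.stabilizer G q := Subgroup.zpowers_le.2 hq
    exact (show (g : G) • q = q from hstab g.2).symm.trans hg
  by_cases h1 : Function.minimalPeriod (x • ·) o.out = 1
  · have hx1 : x • o.out = o.out := by
      have h2 := MulAction.pow_smul_eq_iff_minimalPeriod_dvd (a := x) (b := o.out) (n := 1)
      rw [pow_one] at h2
      exact h2.2 h1.dvd
    rw [show Finset.univ.filter (fun q => π q = o) = {o.out} from ?_, Finset.prod_singleton]
    · simp only [h1, pow_one]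
      rw [fixedVal, dif_pos]
    · ext q
      simp only [Finset.mem_filter, Finset.mem_univ, true_and, Finset.mem_singleton]
      refine ⟨fun hq => ?_, fun hq => hq ▸ Quotient.out_eq' o⟩
      obtain ⟨g, hg⟩ := horb q hq
      have hstab : Subgroup.zpowers x ≤ MulAction.stabilizer G o.out := Subgroup.zpowers_le.2 hx1
      exact hg.symm.trans (show (g : G) • o.out = o.out from hstab g.2)
  · have hdvd : Function.minimalPeriod (x • ·) o.out ∣ orderOf x :=
      MulAction.pow_smul_eq_iff_minimalPeriod_dvd.1 (by rw [pow_orderOf_eq_one, one_smul])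
    obtain ⟨j, hj⟩ := hx
    obtain ⟨i, -, hi⟩ := (Nat.dvd_prime_pow hp.out).1 (hdvd.trans (orderOf_dvd_of_pow_eq_one hj))
    rw [hvan _ _ _ (hi.symm ▸ dvd_pow_self p fun e => h1 (by rw [hi, e, pow_zero]))]
    refine (Finset.prod_eq_one fun q hq => of_not_not fun hne => h1 ?_).symm
    have hq' := hper q (hfix q hne) (horb q (Finset.mem_filter.1 hq).2)
    have h2 := MulAction.pow_smul_eq_iff_minimalPeriod_dvd (a := x) (b := o.out) (n := 1)
    rw [pow_one] at h2
    exact Nat.dvd_one.1 (h2.1 (hq' ▸ hfix q hne))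

theorem pow_mem_of_normalizer_step [Finite G] [hp : Fact p.Prime] (S : Sylow p G) {Q R : Subgroup G}
    (hQS : Q ≤ (S : Subgroup G)) (hRS : R ≤ (S : Subgroup G))
    (hSQ : (S : Subgroup G) ≤ normalizer (Q : Set G)) (hQR : ¬ Q ≤ R) :
    ∃ z ∈ Q, z ∉ R ∧ z ^ p ∈ R ∧ z ∈ normalizer (R : Set G) := by
  set T := R ⊔ Q
  haveI : Group.IsNilpotent T := (S.isPGroup'.to_le (sup_le hRS hQS)).isNilpotent
  have hlt : R.subgroupOf T < ⊤ := lt_top_iff_ne_top.2 fun e =>
    hQR (le_sup_right.trans (subgroupOf_eq_top.1 e))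
  obtain ⟨w, hw, hwR⟩ := SetLike.exists_of_lt
    (normalizerCondition_of_isNilpotent (G := T) (R.subgroupOf T) hlt)
  have hwN : (w : G) ∈ normalizer (R : Set G) := by
    refine mem_normalizer_fintype fun y hy => ?_
    have := ((mem_normalizer_iff.1 hw) ⟨y, mem_sup_left hy⟩).1 (mem_subgroupOf.2 hy)
    simpa [mem_subgroupOf] using this
  have hw2 : (w : G) ∈ (↑(R ⊔ Q) : Set G) := w.2
  rw [coe_mul_of_left_le_normalizer_right _ _ (hRS.trans hSQ)] at hw2
  obtain ⟨r, hr, q, hq, hrq⟩ := Set.mem_mul.1 hw2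
  have hqN : q ∈ normalizer (R : Set G) := by
    have h := mul_mem (inv_mem (le_normalizer hr)) hwN
    rwa [← hrq, inv_mul_cancel_left] at h
  have hqR : q ∉ R := fun h => hwR (mem_subgroupOf.2 (hrq ▸ mul_mem hr h))
  obtain ⟨e, he⟩ := S.isPGroup' ⟨q, hQS hq⟩
  have hex : ∃ j, q ^ p ^ j ∈ R := ⟨e, by
    have := congrArg Subtype.val he
    simp only [SubmonoidClass.coe_pow, OneMemClass.coe_one] at this
    rw [this]; exact one_mem _⟩
  obtain ⟨j, hj⟩ : ∃ j, Nat.find hex = j + 1 :=
    Nat.exists_eq_succ_of_ne_zero fun h => hqR (by simpa [h] using Nat.find_spec hex)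
  exact ⟨q ^ p ^ j, pow_mem hq _, Nat.find_min hex (hj ▸ Nat.lt_succ_self j),
    by rw [← pow_mul, ← pow_succ, ← hj]; exact Nat.find_spec hex, pow_mem hqN _⟩

/-- A character of the normalizer killing nothing new. -/
theorem exists_functional [Finite G] [hp : Fact p.Prime] (S : Sylow p G) (M : Subgroup G)
    (hSM : (S : Subgroup G) ≤ M) {y : G} (hy : y ∈ (S : Subgroup G))
    (hyL : y ∉ (frattini (S : Subgroup G)).map (S : Subgroup G).subtype ⊔ ⁅M, M⁆) :
    ∃ θ : M →* Multiplicative (ZMod p), θ ⟨y, hSM hy⟩ ≠ 1 := by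
  set S0 := (S : Subgroup G).subgroupOf M
  set Φ := ((frattini (S : Subgroup G)).map (S : Subgroup G).subtype).subgroupOf M
  set L := Φ ⊔ _root_.commutator M
  haveI : L.Normal := Subgroup.Normal.of_commutator_le M le_sup_right
  have hyL' : (⟨y, hSM hy⟩ : M) ∉ L := fun h => hyL (by
    have h1 : y ∈ L.map M.subtype := ⟨_, h, rfl⟩
    rw [Subgroup.map_sup, Subgroup.map_subtype_commutator] at h1
    exact (sup_le_sup_right (Subgroup.map_comap_le _ _) _) h1)
  set q := QuotientGroup.mk' L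
  letI : CommGroup (M ⧸ L) :=
    { (inferInstance : Group (M ⧸ L)) with
      mul_comm := fun a b => by
        obtain ⟨a, rfl⟩ := QuotientGroup.mk'_surjective L a
        obtain ⟨b, rfl⟩ := QuotientGroup.mk'_surjective L b
        show q a * q b = q b * q a
        rw [← map_mul, ← map_mul]
        refine QuotientGroup.eq.2 (mem_sup_right ?_)
        have e : (a * b)⁻¹ * (b * a) = ⁅b⁻¹, a⁻¹⁆ := by simp only [commutatorElement_def]; group
        rw [e, commutator_def]
        exact commutator_mem_commutator (Subgroup.mem_top _) (Subgroup.mem_top _) }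
  set S1 : Sylow p (M ⧸ L) := (S.subtype hSM).mapSurjective (QuotientGroup.mk'_surjective L)
  have hexp : ∀ z ∈ (S1 : Subgroup (M ⧸ L)), z ^ p = 1 := by
    rintro _ ⟨z, hz, rfl⟩
    rw [← map_pow]
    refine (QuotientGroup.eq_one_iff _).2 (mem_sup_left ?_)
    refine ⟨(⟨(z : G), hz⟩ : (S : Subgroup G)) ^ p,
      Cfsg.Lib.Solv.pow_mem_frattini S.isPGroup' _, ?_⟩
    simp
  set P' : Subgroup (M ⧸ L) := (powMonoidHom p).range
  have hyP : q ⟨y, hSM hy⟩ ∉ P' := by
    rintro ⟨m, hm⟩
    have hm' : m ^ p = q ⟨y, hSM hy⟩ := hm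
    have hy1 : q ⟨y, hSM hy⟩ ∈ (S1 : Subgroup (M ⧸ L)) := ⟨⟨y, hSM hy⟩, hy, rfl⟩
    have hm2 : m ^ p ^ 2 = 1 := by rw [pow_two, pow_mul, hm', hexp _ hy1]
    obtain ⟨T, hT⟩ := (IsPGroup.of_card (p := p) (n := (Nat.card (zpowers m)).factorization p) (by
      obtain ⟨i, -, hi⟩ := (Nat.dvd_prime_pow hp.out).1 (orderOf_dvd_of_pow_eq_one hm2)
      rw [Nat.card_zpowers, hi, Nat.Prime.factorization_pow hp.out, Finsupp.single_eq_same] :
        Nat.card (zpowers m) = _)).exists_le_sylow
    obtain ⟨g, hg⟩ := MulAction.exists_smul_eq (M ⧸ L) T S1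
    have hmS : m ∈ (S1 : Subgroup (M ⧸ L)) := by
      rw [← hg, Sylow.coe_subgroup_smul]
      have := smul_mem_pointwise_smul m (MulAut.conj g) _ (hT (mem_zpowers m))
      simpa [MulAut.smul_def] using this
    rw [hexp m hmS] at hm'
    exact hyL' ((QuotientGroup.eq_one_iff _).1 hm'.symm)
  have hexp2 : ∀ z : (M ⧸ L) ⧸ P', z ^ p = 1 := fun z => by
    obtain ⟨z, rfl⟩ := QuotientGroup.mk'_surjective P' z
    rw [← map_pow]
    exact (QuotientGroup.eq_one_iff _).2 ⟨z, rfl⟩
  have hpg : IsPGroup p ((M ⧸ L) ⧸ P') := fun z => ⟨1, by rw [pow_one]; exact hexp2 z⟩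
  haveI : Group.IsNilpotent ((M ⧸ L) ⧸ P') := hpg.isNilpotent
  obtain ⟨K, hK, hyK⟩ : ∃ K : Subgroup ((M ⧸ L) ⧸ P'), IsCoatom K ∧
      QuotientGroup.mk' P' (q ⟨y, hSM hy⟩) ∉ K := by
    by_contra hc
    push Not at hc
    have h1 := Cfsg.Lib.Solv.mem_frattini_iff.2 fun K hK => hc K hK
    have h0 : frattini ((M ⧸ L) ⧸ P') = ⊥ := le_bot_iff.1
      (Cfsg.Lib.Solv.frattini_le_of_elementary_quotient (p := p) ⊥
        (by
          rw [commutator_def, Subgroup.commutator_le]
          intro a _ b _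
          rw [Subgroup.mem_bot, commutatorElement_eq_one_iff_mul_comm, mul_comm])
        (fun z => by rw [Subgroup.mem_bot]; exact hexp2 z))
    rw [h0, Subgroup.mem_bot] at h1
    exact hyP ((QuotientGroup.eq_one_iff _).1 h1)
  have hKc : Nat.card (((M ⧸ L) ⧸ P') ⧸ K) = p := by
    rw [← Subgroup.index_eq_card]
    exact Cfsg.Lib.Solv.coatom_index_eq_prime hpg hK
  haveI : IsCyclic (((M ⧸ L) ⧸ P') ⧸ K) := isCyclic_of_prime_card hKc
  let e : ((M ⧸ L) ⧸ P') ⧸ K ≃* Multiplicative (ZMod p) :=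
    (zmodCyclicMulEquiv ‹_›).symm.trans
      (AddEquiv.toMultiplicative (ZMod.ringEquivCongr hKc).toAddEquiv)
  refine ⟨e.toMonoidHom.comp ((QuotientGroup.mk' K).comp ((QuotientGroup.mk' P').comp q)), fun h => ?_⟩
  exact hyK ((QuotientGroup.eq_one_iff _).1 (e.injective (h.trans (map_one e).symm)))

/-- Hall-Wielandt: control of transfer. -/
theorem inf_commutator_le [Finite G] [hp : Fact p.Prime] (S : Sylow p G) (Q : Subgroup G)
    (hQS : Q ≤ (S : Subgroup G)) (hSQ : (S : Subgroup G) ≤ normalizer (Q : Set G))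
    (hwc : ∀ g : G, (∀ z ∈ Q, g * z * g⁻¹ ∈ (S : Subgroup G)) → g ∈ normalizer (Q : Set G))
    (h : ∀ u ∈ (S : Subgroup G), ∀ z ∈ Q, (fun y : G => y⁻¹ * z⁻¹ * y * z)^[p - 1] u = 1) :
    (S : Subgroup G) ⊓ commutator G ≤ (frattini (S : Subgroup G)).map (S : Subgroup G).subtype ⊔
      ⁅normalizer (Q : Set G), normalizer (Q : Set G)⁆ := by
  intro y hy
  by_contra hyL
  set M := normalizer (Q : Set G)
  obtain ⟨θ, hθy⟩ := exists_functional S M hSQ hy.1 hyL
  obtain ⟨⟨x, hx⟩, ⟨hxG, hxθ⟩, hxmin⟩ := (Set.toFinite {z : (S : Subgroup G) |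
      (z : G) ∈ commutator G ∧ θ ⟨z, hSQ z.2⟩ ≠ 1}).exists_minimalFor
    (fun z : (S : Subgroup G) => orderOf (z : G)) _ ⟨⟨y, hy.1⟩, hy.2, hθy⟩
  have hsmall : ∀ (u : G) (huM : u ∈ M), u ∈ commutator G → (∃ j : ℕ, u ^ p ^ j = 1) →
      orderOf u < orderOf x → θ ⟨u, huM⟩ = 1 := by
    intro u huM huG ⟨j, hj⟩ hlt
    by_contra hne
    obtain ⟨i, -, hi⟩ := (Nat.dvd_prime_pow hp.out).1 (orderOf_dvd_of_pow_eq_one hj)
    obtain ⟨T, hT⟩ := (IsPGroup.of_card (p := p) (n := i)
      (show Nat.card (zpowers (⟨u, huM⟩ : M)) = p ^ i by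
        rw [Nat.card_zpowers, Subgroup.orderOf_mk, hi])).exists_le_sylow
    obtain ⟨m, hm⟩ := MulAction.exists_smul_eq M T (S.subtype hSQ)
    have hin : m * ⟨u, huM⟩ * m⁻¹ ∈ ((S.subtype hSQ : Sylow p M) : Subgroup M) := by
      rw [← hm, Sylow.coe_subgroup_smul]
      exact smul_mem_pointwise_smul _ (MulAut.conj m) _ (hT (mem_zpowers _))
    rw [Sylow.coe_subtype, mem_subgroupOf] at hin
    have hord : orderOf ((m : G) * u * (m : G)⁻¹) = orderOf u :=
      orderOf_injective (MulAut.conj (m : G)).toMonoidHom (MulAut.conj (m : G)).injective u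
    refine absurd (hxmin (j := ⟨_, hin⟩) ⟨?_, ?_⟩ (by show orderOf ((m : G) * u * (m : G)⁻¹) ≤ _; rw [hord]; exact hlt.le)) ?_
    · exact Subgroup.Normal.conj_mem inferInstance u huG m
    · show θ (m * ⟨u, huM⟩ * m⁻¹) ≠ 1
      rwa [map_mul, map_mul, map_inv, mul_inv_cancel_comm]
    · show ¬ orderOf x ≤ orderOf ((m : G) * u * (m : G)⁻¹)
      rw [hord]; exact hlt.not_ge
  obtain ⟨j, hj⟩ := S.isPGroup' ⟨x, hx⟩
  have hxj : x ^ p ^ j = 1 := congrArg Subtype.val hj
  letI := Fintype.ofFinite (G ⧸ M)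
  have hvan : ∀ (k : ℕ) (a : G) (h : a⁻¹ * x ^ k * a ∈ M), p ∣ k → θ ⟨_, h⟩ = 1 := by
    intro k a h hk
    have hconj : ∀ n : ℕ, (a⁻¹ * x ^ k * a) ^ n = a⁻¹ * (x ^ k) ^ n * a := fun n => by
      have := conj_pow (i := n) (a := a⁻¹) (b := x ^ k)
      rwa [inv_inv] at this
    have hord : orderOf (a⁻¹ * x ^ k * a) = orderOf (x ^ k) := by
      have := orderOf_injective (MulAut.conj a⁻¹).toMonoidHom (MulAut.conj a⁻¹).injective (x ^ k)
      simpa using this
    refine hsmall _ h ?_ ⟨j, ?_⟩ ?_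
    · have := Subgroup.Normal.conj_mem (inferInstance : (commutator G).Normal) _ (pow_mem hxG k) a⁻¹
      rwa [inv_inv] at this
    · rw [hconj, ← pow_mul, mul_comm, pow_mul, hxj, one_pow]; simp
    · rw [hord]
      refine lt_of_le_of_ne (Nat.le_of_dvd (orderOf_pos x) (orderOf_pow_dvd k)) fun e => ?_
      rw [orderOf_pow] at e
      obtain ⟨i, -, hi⟩ := (Nat.dvd_prime_pow hp.out).1 (orderOf_dvd_of_pow_eq_one hxj)
      have hi0 : i ≠ 0 := fun e0 => hxθ (by
        rw [e0, pow_zero, orderOf_eq_one_iff] at hi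
        subst hi
        exact map_one θ)
      have hdiv : p ∣ Nat.gcd (orderOf x) k := Nat.dvd_gcd (hi.symm ▸ dvd_pow_self p hi0) hk
      have h5 : orderOf x / Nat.gcd (orderOf x) k < orderOf x := Nat.div_lt_self (orderOf_pos x)
        (lt_of_lt_of_le hp.out.one_lt
          (Nat.le_of_dvd (Nat.gcd_pos_of_pos_left _ (orderOf_pos x)) hdiv))
      exact h5.ne e
  have hv : MonoidHom.transfer θ x = 1 :=
    (Abelianization.commutator_subset_ker (MonoidHom.transfer θ)) hxG
  rw [transfer_eq_prod_fixed θ x ⟨j, hxj⟩ hvan] at hv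
  letI := Fintype.ofFinite (Quotient (MulAction.orbitRel (S : Subgroup G) (G ⧸ M)))
  let π : G ⧸ M → Quotient (MulAction.orbitRel (S : Subgroup G) (G ⧸ M)) := Quotient.mk''
  set q0 : G ⧸ M := ((1 : G) : G ⧸ M)
  have hq0 : ∀ q, π q = π q0 → q = q0 := by
    intro q hq
    obtain ⟨s, hs⟩ := (Quotient.eq''.1 hq : q ∈ MulAction.orbit (S : Subgroup G) q0)
    rw [← hs]
    refine QuotientGroup.eq.2 ?_
    simpa using inv_mem (hSQ s.2)
  rw [← Finset.prod_fiberwise Finset.univ π, Finset.prod_eq_single (π q0)] at hv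
  rotate_left
  · intro o _ ho
    set q1 := o.out
    set g := q1.out
    have hg : (g : G ⧸ M) = q1 := QuotientGroup.out_eq' q1
    set R : Subgroup G := (S : Subgroup G) ⊓ M.map (MulAut.conj g).toMonoidHom
    have hR : ∀ s : G, s ∈ R ↔ s ∈ (S : Subgroup G) ∧ g⁻¹ * s * g ∈ M := by
      intro s
      refine ⟨fun ⟨hs, m, hm, he⟩ => ⟨hs, ?_⟩, fun ⟨hs, hsm⟩ => ⟨hs, _, hsm, by simp [mul_assoc]⟩⟩
      rw [← he]; simpa [mul_assoc] using hm
    have hQR : ¬ Q ≤ R := by
      intro hle
      have hQp : IsPGroup p ((Q.map (MulAut.conj g⁻¹).toMonoidHom).subgroupOf M) :=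
        ((S.isPGroup'.to_le hQS).map _).comap_of_injective M.subtype M.subtype_injective
      obtain ⟨T, hT⟩ := hQp.exists_le_sylow
      obtain ⟨m, hm⟩ := MulAction.exists_smul_eq M T (S.subtype hSQ)
      have hmem := hwc ((m : G) * g⁻¹) (fun z hz => by
        have hzM : g⁻¹ * z * g ∈ M := ((hR z).1 (hle hz)).2
        have h1 : (⟨_, hzM⟩ : M) ∈ (T : Subgroup M) := hT ⟨z, hz, by simp⟩
        have h2 : m * ⟨_, hzM⟩ * m⁻¹ ∈ ((S.subtype hSQ : Sylow p M) : Subgroup M) := by
          rw [← hm, Sylow.coe_subgroup_smul]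
          exact smul_mem_pointwise_smul _ (MulAut.conj m) _ h1
        rw [Sylow.coe_subtype, mem_subgroupOf] at h2
        simpa [mul_assoc] using h2)
      have hgM : g⁻¹ ∈ M := by
        have := M.mul_mem (M.inv_mem m.2) hmem
        rwa [inv_mul_cancel_left] at this
      refine ho ?_
      rw [← Quotient.out_eq' o]
      show π q1 = π q0
      exact congrArg π (hg.symm.trans (QuotientGroup.eq.2 (by simpa using hgM)))
    obtain ⟨z, hzQ, hzR, hzp, hzN⟩ := pow_mem_of_normalizer_step S hQS inf_le_left hSQ hQR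
    have hzS : z ∈ (S : Subgroup G) := hQS hzQ
    -- the cosets of the orbit
    have hcoset : ∀ s t : G, s ∈ (S : Subgroup G) → t ∈ (S : Subgroup G) →
        (((s * g : G) : G ⧸ M) = ((t * g : G) : G ⧸ M) ↔ s⁻¹ * t ∈ R) := by
      intro s t hs ht
      rw [QuotientGroup.eq, hR, show (s * g)⁻¹ * (t * g) = g⁻¹ * (s⁻¹ * t) * g by group]
      exact ⟨fun h => ⟨mul_mem (inv_mem hs) ht, h⟩, fun h => h.2⟩
    have hfixed : ∀ s : G, s ∈ (S : Subgroup G) →
        (x • ((s * g : G) : G ⧸ M) = ((s * g : G) : G ⧸ M) ↔ s⁻¹ * x * s ∈ R) := by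
      intro s hs
      have e : ((s * g : G) : G ⧸ M) = ((x * s * g : G) : G ⧸ M) ↔ s⁻¹ * x * s ∈ R := by
        rw [hcoset s (x * s) hs (mul_mem hx hs), mul_assoc]
      rw [← e, MulAction.Quotient.smul_mk, smul_eq_mul, mul_assoc x]
      exact eq_comm
    let X := {q : G ⧸ M // π q = o ∧ x • q = q}
    have hrep : ∀ q : X, ∃ s ∈ (S : Subgroup G), q.1 = ((s * g : G) : G ⧸ M) := by
      intro q
      obtain ⟨s, hs⟩ := (Quotient.eq''.1 (q.2.1.trans (Quotient.out_eq' o).symm) :
        q.1 ∈ MulAction.orbit (S : Subgroup G) q1)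
      refine ⟨s, s.2, hs.symm.trans ?_⟩
      show (s : G) • q1 = _
      rw [← hg]
      rfl
    choose rep hrepS hrepq using hrep
    have hzn : ∀ n : ℕ, z ^ n ∈ normalizer (R : Set G) := fun n => pow_mem hzN n
    have hshift : ∀ (s t : G), s ∈ (S : Subgroup G) → t ∈ (S : Subgroup G) → s⁻¹ * t ∈ R → ∀ n : ℕ,
        (((s * z ^ n) * g : G) : G ⧸ M) = (((t * z ^ n) * g : G) : G ⧸ M) := by
      intro s t hs ht hr n
      rw [hcoset _ _ (mul_mem hs (pow_mem hzS n)) (mul_mem ht (pow_mem hzS n))]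
      have := (mem_normalizer_iff''.1 (hzn n) _).1 hr
      simpa [mul_assoc] using this
    have hXmem : ∀ (s : G), s ∈ (S : Subgroup G) → s⁻¹ * x * s ∈ R → ∀ n : ℕ,
        π (((s * z ^ n) * g : G) : G ⧸ M) = o ∧
          x • (((s * z ^ n) * g : G) : G ⧸ M) = (((s * z ^ n) * g : G) : G ⧸ M) := by
      intro s hs hu n
      refine ⟨?_, (hfixed _ (mul_mem hs (pow_mem hzS n))).2 ?_⟩
      · refine (Quotient.sound' ?_).trans (Quotient.out_eq' o)
        refine ⟨⟨s * z ^ n, mul_mem hs (pow_mem hzS n)⟩, ?_⟩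
        show (s * z ^ n) • q1 = _
        rw [← hg]
        rfl
      · have := (mem_normalizer_iff''.1 (hzn n) _).1 hu
        simpa [mul_assoc] using this
    have hu : ∀ q : X, (rep q)⁻¹ * x * rep q ∈ R := fun q => by
      rw [← hfixed _ (hrepS q), ← hrepq q]; exact q.2.2
    let φ : X → X := fun q => ⟨_, hXmem _ (hrepS q) (hu q) 1⟩
    have hφ : ∀ (n : ℕ) (q : X), ((φ^[n] q).1) = (((rep q * z ^ n) * g : G) : G ⧸ M) := by
      intro n
      induction n with
      | zero => intro q; simp [← hrepq q]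
      | succ n ih =>
        intro q
        rw [Function.iterate_succ_apply', show (φ (φ^[n] q)).1 =
          (((rep (φ^[n] q) * z ^ 1) * g : G) : G ⧸ M) from rfl]
        rw [hshift (rep (φ^[n] q)) (rep q * z ^ n) (hrepS _) (mul_mem (hrepS q) (pow_mem hzS n))
          ((hcoset _ _ (hrepS _) (mul_mem (hrepS q) (pow_mem hzS n))).1
            ((hrepq _).symm.trans (ih q))) 1, mul_assoc (rep q), ← pow_add]
    have hperiod : ∀ q : X, φ^[p] q = q := fun q => Subtype.ext (by
      rw [hφ]
      conv_rhs => rw [hrepq q]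
      refine ((hcoset _ _ (hrepS q) (mul_mem (hrepS q) (pow_mem hzS p))).2 ?_).symm
      rwa [inv_mul_cancel_left])
    have hinv : Function.Bijective φ :=
      ⟨Function.LeftInverse.injective (g := φ^[p - 1]) fun q => by
          rw [← Function.iterate_succ_apply, Nat.succ_eq_add_one, Nat.sub_add_cancel hp.out.one_le, hperiod],
        fun q => ⟨φ^[p - 1] q, by
          rw [← Function.iterate_succ_apply' φ, Nat.succ_eq_add_one, Nat.sub_add_cancel hp.out.one_le, hperiod]⟩⟩
    have hpow : ∀ (n : ℕ) (q : X), ((Equiv.ofBijective φ hinv) ^ n) q = φ^[n] q := by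
      intro n q
      rw [Equiv.Perm.coe_pow]
      rfl
    have hcyc : ∀ q : X, ∏ i ∈ Finset.range p,
        Cfsg.Lib.Yoshida.fixedVal θ x ((φ^[i] q).1) = 1 := by
      intro q
      let α : R →* Multiplicative (ZMod p) :=
        { toFun := fun r => θ ⟨g⁻¹ * r * g, ((hR r).1 r.2).2⟩
          map_one' := by
            rw [← map_one θ]; exact congrArg θ (Subtype.ext (by simp))
          map_mul' := fun a b => by
            rw [← map_mul]; exact congrArg θ (Subtype.ext (by simp [mul_assoc])) }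
      let a : R →* R :=
        { toFun := fun r => ⟨z⁻¹ * r * z, (mem_normalizer_iff''.1 hzN _).1 r.2⟩
          map_one' := Subtype.ext (by simp)
          map_mul' := fun a b => Subtype.ext (by simp [mul_assoc]) }
      have hiter : ∀ (n : ℕ) (r : R), ((fun y : R => y⁻¹ * a y)^[n] r : G) =
          (fun y : G => y⁻¹ * z⁻¹ * y * z)^[n] (r : G) := by
        intro n r
        induction n with
        | zero => rfl
        | succ n ih =>
          rw [Function.iterate_succ_apply', Function.iterate_succ_apply', ← ih]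
          simp [a, mul_assoc]
      have hait : ∀ (n : ℕ) (r : R), (a^[n] r : G) = (z ^ n)⁻¹ * r * z ^ n := by
        intro n r
        induction n with
        | zero => simp
        | succ n ih =>
          rw [Function.iterate_succ_apply']
          show z⁻¹ * (a^[n] r : G) * z = _
          rw [ih, pow_succ]; group
      have hsum := sum_iterate_zero (p := p) a (fun r => Multiplicative.toAdd (α r))
        (fun r t => by rw [map_mul, toAdd_mul])
        (fun r => by rw [nsmul_eq_mul, ZMod.natCast_self, zero_mul])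
        (fun r => by
          have h1 : (fun y : R => y⁻¹ * a y)^[p - 1] r = 1 :=
            Subtype.ext ((hiter _ r).trans (h r ((hR r).1 r.2).1 z hzQ))
          rw [h1, map_one, toAdd_one])
        ⟨_, hu q⟩
      rw [← toAdd_prod, toAdd_eq_zero] at hsum
      refine Eq.trans (Finset.prod_congr rfl fun i _ => ?_) hsum
      have hmem := (a^[i] (⟨_, hu q⟩ : R)).2
      rw [hφ, Cfsg.Lib.Yoshida.fixedVal_mk, dif_pos]
      · show θ _ = θ _
        refine congrArg θ (Subtype.ext ?_)
        simp [hait, mul_assoc]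
      · have := ((hR _).1 hmem).2
        rw [hait] at this
        simpa [mul_assoc] using this
    have hne : ∀ q : X, φ q ≠ q := fun q e => hzR (by
      have e' := congrArg Subtype.val e
      have h1 := hφ 1 q
      rw [Function.iterate_one, e', pow_one] at h1
      have h2 := (hcoset _ _ (hrepS q) (mul_mem (hrepS q) hzS)).1 ((hrepq q).symm.trans h1)
      rwa [inv_mul_cancel_left] at h2)
    have hmain : ∏ q : X, Cfsg.Lib.Yoshida.fixedVal θ x q.1 = 1 :=
      prod_eq_one_of_cycles (p := p) (Equiv.ofBijective φ hinv) _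
        (fun q => (hpow p q).trans (hperiod q)) (fun q => hne q)
        (fun q => by simp only [hpow]; exact hcyc q)
    rw [← Finset.prod_subtype (Finset.univ.filter fun q : G ⧸ M => π q = o ∧ x • q = q)
      (fun q => by simp) (fun q => Cfsg.Lib.Yoshida.fixedVal θ x q)] at hmain
    rw [← hmain]
    refine (Finset.prod_subset (fun q hq => ?_) fun q hq hq' => ?_).symm
    · simp only [Finset.mem_filter, Finset.mem_univ, true_and] at hq ⊢
      exact hq.1
    · simp only [Finset.mem_filter, Finset.mem_univ, true_and, not_and] at hq hq'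
      unfold Cfsg.Lib.Yoshida.fixedVal
      rw [dif_neg]
      intro hm
      apply hq' hq
      conv_lhs => rw [← QuotientGroup.out_eq' q]
      rw [MulAction.Quotient.smul_mk]
      conv_rhs => rw [← QuotientGroup.out_eq' q]
      refine QuotientGroup.eq.2 ?_
      have := inv_mem hm
      simpa [mul_assoc] using this
  · intro hn
    exact absurd (Finset.mem_univ _) hn
  refine hxθ ?_
  rw [show Finset.univ.filter (fun q => π q = π q0) = {q0} by
    ext q; simp only [Finset.mem_filter, Finset.mem_univ, true_and, Finset.mem_singleton]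
    exact ⟨hq0 q, fun e => by rw [e]⟩, Finset.prod_singleton,
    Cfsg.Lib.Yoshida.fixedVal_mk, dif_pos (by simpa using hSQ hx)] at hv
  simpa using hv

open Cfsg Cfsg.Lib.Fusion Cfsg.FusionSystem in
/-- Control of transfer modulo Frattini gives control of the residual. -/
theorem inf_pResidual_le [Finite G] [hp : Fact p.Prime] (S : Sylow p G) (Q : Subgroup G)
    (hQS : Q ≤ (S : Subgroup G)) (hSQ : (S : Subgroup G) ≤ normalizer (Q : Set G))
    (hfoc : (S : Subgroup G) ⊓ commutator G ≤ (frattini (S : Subgroup G)).map (S : Subgroup G).subtype ⊔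
      ⁅normalizer (Q : Set G), normalizer (Q : Set G)⁆) :
    (S : Subgroup G) ⊓ Cfsg.pResidual p G ≤
      (Cfsg.pResidual p (normalizer (Q : Set G))).map (normalizer (Q : Set G)).subtype := by
  set F := groupFusionSystem (S : Subgroup G)
  have hsat : F.IsSaturated p := saturated_group _
  set M := normalizer (Q : Set G)
  have hnQ : normalizerIn (S : Subgroup G) Q = S :=
    le_antisymm normalizerIn_le (le_inf le_rfl hSQ)
  have hfull : F.IsFullyNormalized Q := ⟨hQS, fun R _ => by
    rw [hnQ]; exact Subgroup.card_le_of_le normalizerIn_le⟩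
  set E := normalizerExt F Q (normalizerIn (S : Subgroup G) Q) hQS le_rfl
  have hE : F.IsNormalizerSystem Q E := isNormalizerSystem_normalizerExt hQS
  have hsatE : E.IsSaturated p := saturated_normalizerSystem S.isPGroup' hsat hfull hE
  have hgen : ∀ (T : Subgroup G) (hT : T ≤ normalizerIn (S : Subgroup G) Q),
      T = normalizerIn (S : Subgroup G) Q → (normalizerExt F Q T hQS hT).IsSaturated p := by
    rintro T hT rfl
    exact hsatE
  set H := normalizerExt F Q (S : Subgroup G) hQS hnQ.ge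
  have hsatH : H.IsSaturated p := hgen _ hnQ.ge hnQ.symm
  have hHF : ∀ P f, Mor H P f → Mor F P f := fun P f hf => by
    obtain ⟨-, -, k, hk, hke, -⟩ := mor_normalizerExt_iff.1 hf
    exact (hk.restrict le_sup_left).congr hke
  have hMS : ((S : Subgroup G).subgroupOf M).map M.subtype = (S : Subgroup G) :=
    map_subgroupOf_eq_of_le hSQ
  have hNfoc : (S : Subgroup G) ⊓ ⁅M, M⁆ ≤ H.focalSubgroup := by
    intro w hw
    let S0 : Sylow p M := S.subtype hSQ
    obtain ⟨v, hv, rfl⟩ : w ∈ ((S0 : Subgroup M).focalSubgroup).map M.subtype := by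
      refine ⟨⟨w, hSQ hw.1⟩, ?_, rfl⟩
      rw [SetLike.mem_coe, ← Subgroup.commutator_inf_eq_focalSubgroup S0]
      refine ⟨?_, hw.1⟩
      have h2 := hw.2
      rw [← Subgroup.map_subtype_commutator] at h2
      obtain ⟨v, hv, hvw⟩ := h2
      exact (Subtype.ext hvw : v = ⟨w, hSQ hw.1⟩) ▸ hv
    have hle : (S0 : Subgroup M).focalSubgroup ≤ H.focalSubgroup.comap M.subtype := by
      rw [Subgroup.focalSubgroup_def, Subgroup.closure_le]
      rintro g ⟨hg, a, ha, c, rfl⟩
      have hconj : (c : G) * (a : G)⁻¹ * (c : G)⁻¹ ∈ (S : Subgroup G) := by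
        have h1 := mul_mem (inv_mem (show (a : G) ∈ (S : Subgroup G) from ha))
          (show ((⁅a, c⁆ : M) : G) ∈ (S : Subgroup G) from hg)
        simpa [commutatorElement_def, mul_assoc] using h1
      have hsup : zpowers (a : G)⁻¹ ⊔ Q ≤ (S : Subgroup G) :=
        sup_le (zpowers_le.2 (inv_mem ha)) hQS
      have hmap : ∀ y ∈ zpowers (a : G)⁻¹ ⊔ Q, (c : G) * y * (c : G)⁻¹ ∈ (S : Subgroup G) := by
        intro y hy
        have : (zpowers (a : G)⁻¹ ⊔ Q) ≤ (S : Subgroup G).comap (MulAut.conj (c : G)).toMonoidHom :=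
          sup_le (zpowers_le.2 hconj) fun q hq => hQS ((mem_normalizer_iff.1 c.2 q).1 hq)
        exact this hy
      have hk := mor_group_conj (S := (S : Subgroup G)) (c := (c : G)) hsup hmap
      have hH : Mor H (zpowers (a : G)⁻¹) (fun y => (c : G) * y * (c : G)⁻¹) :=
        mor_normalizerExt_iff.2 ⟨le_sup_left.trans hsup, fun y hy => hmap y (mem_sup_left hy),
          _, hk, fun _ _ => rfl, le_antisymm (img_le fun q hq => (mem_normalizer_iff.1 c.2 q).1 hq) fun q hq => by
            have hq' : (c : G)⁻¹ * q * (c : G) ∈ Q := (mem_normalizer_iff''.1 c.2 q).1 hq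
            have := mem_img_of_mem (f := fun y => (c : G) * y * (c : G)⁻¹) hq'
            simpa [mul_assoc] using this⟩
      have h2 := mem_focal hH (mem_zpowers _)
      rw [SetLike.mem_coe, mem_comap]
      simpa [commutatorElement_def, mul_assoc] using h2
    exact hle hv
  have hfocle : F.focalSubgroup ≤ (frattini ↥(S : Subgroup G)).map (S : Subgroup G).subtype ⊔ H.focalSubgroup := by
    refine focal_le_iff.2 fun P f hf w hw => ?_
    obtain ⟨hPS, c, hc⟩ := mor_group_iff.1 hf
    have hmem : w⁻¹ * f w ∈ (S : Subgroup G) ⊓ commutator G := by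
      rw [(hc w hw).1]
      refine ⟨Subgroup.mul_mem _ (Subgroup.inv_mem _ (hPS hw)) (hc w hw).2, ?_⟩
      rw [show w⁻¹ * (c * w * c⁻¹) = ⁅w⁻¹, c⁆ by simp only [commutatorElement_def]; group,
        _root_.commutator_def]
      exact commutator_mem_commutator (Subgroup.mem_top _) (Subgroup.mem_top _)
    have h1 := hfoc hmem
    have hΦS : (frattini ↥(S : Subgroup G)).map (S : Subgroup G).subtype ≤ (S : Subgroup G) :=
      map_subtype_le _
    have hn : (frattini ↥(S : Subgroup G)).map (S : Subgroup G).subtype ≤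
        normalizer ((⁅M, M⁆ : Subgroup G) : Set G) :=
      hΦS.trans (hSQ.trans (Cfsg.Lib.Solv.le_normalizer_commutator_left M M))
    rw [← SetLike.mem_coe, coe_mul_of_left_le_normalizer_right _ _ hn] at h1
    obtain ⟨f1, hf1, m, hm, e⟩ := Set.mem_mul.1 h1
    rw [← e]
    refine mul_mem (mem_sup_left hf1) (mem_sup_right (hNfoc ⟨?_, hm⟩))
    have := mul_mem (inv_mem (hΦS hf1)) hmem.1
    rwa [← e, inv_mul_cancel_left] at this
  have hfocal := focal_le_of_le_sup_frattini S.isPGroup' hsat hHF hfocle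
  have hle := hyperfocal_le_of_focal_le (F := F) (H := H) S.isPGroup' hsat hsatH hHF hfocal
  rw [← GroupHyperfocal.hyperfocal_group_eq S]
  refine hle.trans (GroupHyperfocal.hyperfocal_le_of _ fun P hP α hα hcop x => ?_)
  obtain ⟨-, -, k, hk, hke, hkQ⟩ := mor_normalizerExt_iff.1 ((mem_autGroup_iff hP).1 hα)
  obtain ⟨-, c, hc⟩ := mor_group_iff.1 hk
  have hcM : c ∈ M := by
    refine mem_normalizer_fintype fun y hy => ?_
    have hm := mem_img_of_mem (f := k) hy
    rw [hkQ] at hm
    rwa [(hc y (mem_sup_right hy)).1] at hm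
  obtain ⟨d, hdM, hd, hde⟩ := GroupHyperfocal.exists_coprime_realizer hcM (α := α)
    (fun y => ((autFun_coe α y).symm.trans (hke y y.2).symm).trans (hc y (mem_sup_left y.2)).1) hcop
  rw [hde]
  have hxM : (x : G) ∈ M := hSQ (hP x.2)
  haveI := Transfer.pResidual_normal (G := M) p
  have hdK : (⟨d, hdM⟩ : M) ∈ Cfsg.pResidual p M :=
    Transfer.coprime_orderOf_mem_pResidual (by rwa [Subgroup.orderOf_mk])
  refine ⟨(⟨x, hxM⟩ : M)⁻¹ * ⟨d, hdM⟩ * (⟨x, hxM⟩ : M)⁻¹⁻¹ * ⟨d, hdM⟩⁻¹,
    mul_mem (Subgroup.Normal.conj_mem inferInstance _ hdK _) (inv_mem hdK), ?_⟩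
  simp [mul_assoc]

/-- Control of the residual, in the ambient group. -/
theorem residual_eq [Finite G] [hp : Fact p.Prime] (S : Sylow p G) (M : Subgroup G)
    (hSM : (S : Subgroup G) ≤ M)
    (h : (S : Subgroup G) ⊓ Cfsg.pResidual p G ≤ (Cfsg.pResidual p M).map M.subtype) :
    (Cfsg.pResidual p M).map M.subtype = Cfsg.pResidual p G ⊓ M := by
  refine le_antisymm (le_inf (Transfer.map_pResidual_le M.subtype) (map_subtype_le _)) ?_
  rintro x ⟨hxK, hxM⟩
  haveI := Transfer.pResidual_normal (G := M) p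
  have hx : (⟨x, hxM⟩ : M) ∈ Cfsg.pResidual p M ⊔ ((S.subtype hSM : Sylow p M) : Subgroup M) := by
    rw [Transfer.pResidual_sup_sylow]; exact Subgroup.mem_top _
  obtain ⟨a, ha, b, hb, hab⟩ := mem_sup_of_normal_left.1 hx
  have hab' : (a : G) * b = x := congrArg Subtype.val hab
  have haK : (a : G) ∈ Cfsg.pResidual p G := Transfer.map_pResidual_le M.subtype ⟨a, ha, rfl⟩
  have hbK : (b : G) ∈ (S : Subgroup G) ⊓ Cfsg.pResidual p G := by
    refine ⟨hb, ?_⟩
    have := mul_mem (inv_mem haK) hxK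
    rwa [← hab', inv_mul_cancel_left] at this
  rw [← hab']
  exact mul_mem ⟨a, ha, rfl⟩ (h hbK)

end Cfsg.Lib.Transfer.HallWielandt
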