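import Mathlib

/-!
The transfer of a finite group into the abelianization of its derived subgroup is trivial.
-/

set_option autoImplicit false

open scoped MonoidAlgebra

namespace Cfsg.Lib.Transfer.PrincipalIdeal

noncomputable section

variable {G : Type*} [Group G]

/-- The relations of the relative augmentation module. -/
def rel (G : Type*) [Group G] : AddSubgroup (G →₀ ℤ) :=
  AddSubgroup.closure {x | ∃ a ∈ commutator G, ∃ g : G,
    x = Finsupp.single (a * g) 1 - Finsupp.single a 1 - Finsupp.single g 1}

/-- The relative augmentation module. -/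
def RelMod (G : Type*) [Group G] := (G →₀ ℤ) ⧸ rel G

instance : AddCommGroup (RelMod G) := inferInstanceAs (AddCommGroup ((G →₀ ℤ) ⧸ rel G))

/-- The projection. -/
def mkHom (G : Type*) [Group G] : (G →₀ ℤ) →+ RelMod G := QuotientAddGroup.mk' (rel G)

theorem mkHom_surjective : Function.Surjective (mkHom G) := QuotientAddGroup.mk'_surjective (rel G)

theorem mkHom_eq_zero {x : G →₀ ℤ} : mkHom G x = 0 ↔ x ∈ rel G := QuotientAddGroup.eq_zero_iff x

/-- The class of `g - 1`. -/
noncomputable def dl (g : G) : RelMod G := mkHom G (Finsupp.single g 1)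

theorem dl_mul_left {a : G} (ha : a ∈ commutator G) (g : G) : dl (a * g) = dl a + dl g := by
  rw [← sub_eq_zero, dl, dl, dl, ← map_add, ← map_sub, mkHom_eq_zero]
  rw [show Finsupp.single (a * g) (1 : ℤ) - (Finsupp.single a 1 + Finsupp.single g 1) =
    Finsupp.single (a * g) 1 - Finsupp.single a 1 - Finsupp.single g 1 by abel]
  exact AddSubgroup.subset_closure ⟨a, ha, g, rfl⟩

theorem dl_one : dl (1 : G) = 0 := by
  have h := dl_mul_left (one_mem (commutator G)) (1 : G)
  rw [one_mul] at h
  exact left_eq_add.1 h

theorem hom_ext {M : Type*} [AddCommGroup M] {f f' : RelMod G →+ M} (h : ∀ g, f (dl g) = f' (dl g)) :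
    f = f' := by
  refine QuotientAddGroup.addMonoidHom_ext _ (Finsupp.addHom_ext' fun g => AddMonoidHom.ext_int ?_)
  exact h g

theorem span_top (R : Type*) [Ring R] [Module R (RelMod G)] :
    Submodule.span R (Set.range (dl : G → RelMod G)) = ⊤ := by
  refine eq_top_iff.2 fun x hx => ?_
  clear hx
  obtain ⟨x, rfl⟩ := mkHom_surjective x
  induction x using Finsupp.induction_linear with
  | zero => rw [map_zero]; exact zero_mem _
  | add x y hx hy => rw [map_add]; exact add_mem hx hy
  | single g n =>
    rw [← mul_one n, ← smul_eq_mul, ← Finsupp.smul_single, map_zsmul]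
    exact zsmul_mem (Submodule.subset_span (Set.mem_range_self g)) n

/-- The action before passing to the quotient. -/
noncomputable def actPre (t : G) : (G →₀ ℤ) →+ RelMod G :=
  Finsupp.liftAddHom fun g => zmultiplesHom (RelMod G) (dl (t * g) - dl t)

theorem actPre_single (t g : G) : actPre t (Finsupp.single g 1) = dl (t * g) - dl t := by
  simp [actPre]

theorem rel_le_ker (t : G) : rel G ≤ (actPre t).ker := by
  refine (AddSubgroup.closure_le _).2 ?_
  rintro _ ⟨a, ha, g, rfl⟩
  have ha' : t * a * t⁻¹ ∈ commutator G := (inferInstance : (commutator G).Normal).conj_mem a ha t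
  rw [SetLike.mem_coe, AddMonoidHom.mem_ker, map_sub, map_sub, actPre_single, actPre_single,
    actPre_single, show t * (a * g) = (t * a * t⁻¹) * (t * g) by group, dl_mul_left ha',
    show dl (t * a) = dl (t * a * t⁻¹) + dl t by rw [← dl_mul_left ha', inv_mul_cancel_right]]
  abel

/-- The action of an element. -/
noncomputable def act (t : G) : AddMonoid.End (RelMod G) :=
  QuotientAddGroup.lift (rel G) (actPre t) (rel_le_ker t)

theorem act_dl (t g : G) : act t (dl g) = dl (t * g) - dl t := actPre_single t g

/-- The action of `G`. -/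
noncomputable def actHom : G →* AddMonoid.End (RelMod G) where
  toFun := act
  map_one' := hom_ext fun g => by
    show act 1 (dl g) = dl g
    rw [act_dl, one_mul, dl_one, sub_zero]
  map_mul' t u := hom_ext fun g => by
    show act (t * u) (dl g) = act t (act u (dl g))
    rw [act_dl, act_dl, map_sub, act_dl, act_dl, mul_assoc]
    abel

theorem commutator_le_ker : commutator G ≤ (actHom (G := G)).ker := fun a ha => by
  refine hom_ext fun g => ?_
  show act a (dl g) = dl g
  rw [act_dl, dl_mul_left ha, add_sub_cancel_left]

/-- The action of the abelianization. -/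
noncomputable def actAb : Abelianization G →* AddMonoid.End (RelMod G) :=
  QuotientGroup.lift (commutator G) actHom commutator_le_ker

/-- The ring action. -/
noncomputable def actRing : ℤ[Abelianization G] →+* AddMonoid.End (RelMod G) :=
  (MonoidAlgebra.lift ℤ (AddMonoid.End (RelMod G)) (Abelianization G) actAb).toRingHom

noncomputable instance : Module ℤ[Abelianization G] (RelMod G) := Module.compHom _ actRing

theorem of_smul_dl (t g : G) :
    MonoidAlgebra.of ℤ _ (Abelianization.of t) • dl g = dl (t * g) - dl t := by
  show actRing (MonoidAlgebra.of ℤ _ (Abelianization.of t)) (dl g) = _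
  rw [show actRing (MonoidAlgebra.of ℤ _ (Abelianization.of t)) = act t from
    MonoidAlgebra.lift_of _ _, act_dl]

/-- The augmentation. -/
noncomputable def aug (G : Type*) [Group G] : ℤ[Abelianization G] →+* ℤ :=
  (MonoidAlgebra.lift ℤ ℤ (Abelianization G) 1).toRingHom

theorem aug_of (q : Abelianization G) : aug G (MonoidAlgebra.of ℤ _ q) = 1 :=
  MonoidAlgebra.lift_of _ _

/-- The projection to the augmentation ideal. -/
noncomputable def toRing : RelMod G →+ ℤ[Abelianization G] :=
  QuotientAddGroup.lift (rel G)
    (Finsupp.liftAddHom fun g => zmultiplesHom _ (MonoidAlgebra.of ℤ _ (Abelianization.of g) - 1)) (by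
    refine (AddSubgroup.closure_le _).2 ?_
    rintro _ ⟨a, ha, g, rfl⟩
    have h1 : Abelianization.of a = 1 := (QuotientGroup.eq_one_iff a).2 ha
    simp only [SetLike.mem_coe, AddMonoidHom.mem_ker, map_sub, Finsupp.liftAddHom_apply_single,
      zmultiplesHom_apply, one_zsmul, map_mul, h1, one_mul, map_one]
    abel)

theorem toRing_dl (g : G) :
    toRing (dl g) = MonoidAlgebra.of ℤ _ (Abelianization.of g) - 1 := by
  show Finsupp.liftAddHom _ (Finsupp.single g 1) = _
  simp

theorem toRing_smul (r : ℤ[Abelianization G]) (x : RelMod G) : toRing (r • x) = r * toRing x := by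
  induction r using MonoidAlgebra.induction_on with
  | of q =>
    obtain ⟨t, rfl⟩ := QuotientGroup.mk_surjective q
    have h : toRing.comp (smulAddHom ℤ[Abelianization G] (RelMod G)
        (MonoidAlgebra.of ℤ _ (Abelianization.of t))) =
      (AddMonoidHom.mulLeft (MonoidAlgebra.of ℤ _ (Abelianization.of t))).comp toRing :=
      hom_ext fun g => by
        show toRing (MonoidAlgebra.of ℤ _ (Abelianization.of t) • dl g) =
          MonoidAlgebra.of ℤ _ (Abelianization.of t) * toRing (dl g)
        rw [of_smul_dl, map_sub, toRing_dl, toRing_dl, toRing_dl, map_mul, map_mul, mul_sub, mul_one]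
        abel
    exact DFunLike.congr_fun h x
  | add r s hr hs => rw [add_smul, map_add, hr, hs, add_mul]
  | smul n r hr => rw [smul_assoc, map_zsmul, hr, smul_mul_assoc]

/-- A section of the projection to the abelianization. -/
noncomputable def sec (q : Abelianization G) : G :=
  Quotient.out q * (Quotient.out (1 : Abelianization G))⁻¹

theorem of_sec (q : Abelianization G) : Abelianization.of (sec q) = q := by
  have h : ∀ r : Abelianization G, Abelianization.of (Quotient.out r) = r := fun r => QuotientGroup.out_eq' r
  rw [sec, map_mul, map_inv, h, h, inv_one, mul_one]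

/-- The component in the derived subgroup. -/
noncomputable def part (g : G) : commutator G :=
  ⟨g * (sec (Abelianization.of g))⁻¹, (QuotientGroup.eq_one_iff _).1 (by
    show Abelianization.of _ = 1
    rw [map_mul, map_inv, of_sec, mul_inv_cancel])⟩

theorem part_mul_left {a : G} (ha : a ∈ commutator G) (g : G) : part (a * g) = ⟨a, ha⟩ * part g := by
  refine Subtype.ext ?_
  show a * g * (sec (Abelianization.of (a * g)))⁻¹ = a * (g * (sec (Abelianization.of g))⁻¹)
  rw [map_mul, show Abelianization.of a = 1 from (QuotientGroup.eq_one_iff a).2 ha, one_mul, mul_assoc]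

theorem part_self {a : G} (ha : a ∈ commutator G) : part a = ⟨a, ha⟩ := by
  refine Subtype.ext ?_
  show a * (sec (Abelianization.of a))⁻¹ = a
  rw [show Abelianization.of a = 1 from (QuotientGroup.eq_one_iff a).2 ha, sec, mul_inv_cancel, inv_one,
    mul_one]

/-- The map to the abelianization of the derived subgroup. -/
noncomputable def toAb : RelMod G →+ Additive (Abelianization (commutator G)) :=
  QuotientAddGroup.lift (rel G)
    (Finsupp.liftAddHom fun g => zmultiplesHom _ (Additive.ofMul (Abelianization.of (part g)))) (by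
    refine (AddSubgroup.closure_le _).2 ?_
    rintro _ ⟨a, ha, g, rfl⟩
    simp only [SetLike.mem_coe, AddMonoidHom.mem_ker, map_sub, Finsupp.liftAddHom_apply_single,
      zmultiplesHom_apply, one_zsmul, part_mul_left ha, part_self ha, map_mul, ofMul_mul]
    abel)

theorem toAb_dl {a : G} (ha : a ∈ commutator G) :
    toAb (dl a) = Additive.ofMul (Abelianization.of (⟨a, ha⟩ : commutator G)) := by
  show Finsupp.liftAddHom _ (Finsupp.single a 1) = _
  simp [part_self ha]

variable [Finite G]

/-- The sum over the abelianization annihilates the module. -/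
theorem norm_smul_eq_zero [Fintype (Abelianization G)] (x : RelMod G) :
    (∑ q : Abelianization G, MonoidAlgebra.of ℤ _ q) • x = 0 := by
  classical
  have := Fintype.ofFinite G
  obtain ⟨ι, _, n, hn, ⟨e⟩⟩ := CommGroup.equiv_prod_multiplicative_zmod_of_finite (Abelianization G)
  have hnz : ∀ i, NeZero (n i) := fun i => ⟨by have := hn i; omega⟩
  choose gi hgi using fun i => QuotientGroup.mk_surjective (e.symm (Pi.mulSingle i (Multiplicative.ofAdd (1 : ZMod (n i)))))
  let I : Ideal ℤ[Abelianization G] := RingHom.ker (aug G)
  let W1 : Submodule ℤ[Abelianization G] (RelMod G) := I • ⊤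
  have hI : ∀ t g : G, dl (t * g) - dl t - dl g ∈ W1 := fun t g => by
    have h : (MonoidAlgebra.of ℤ _ (Abelianization.of t) - 1) • dl g ∈ W1 :=
      Submodule.smul_mem_smul (RingHom.mem_ker.2 (by rw [map_sub, aug_of, map_one, sub_self]))
        Submodule.mem_top
    rwa [sub_smul, one_smul, of_smul_dl] at h
  let D : G →* Multiplicative (RelMod G ⧸ W1) :=
    MonoidHom.mk' (fun g => Multiplicative.ofAdd (Submodule.Quotient.mk (dl g))) fun t g => by
      rw [← ofAdd_add, ← Submodule.Quotient.mk_add]
      congr 1
      rw [Submodule.Quotient.eq]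
      convert hI t g using 1
      abel
  let Db : Abelianization G →* Multiplicative (RelMod G ⧸ W1) := Abelianization.lift D
  -- relations modulo the augmentation
  have hdec : ∀ g : G, ∃ c : ι → ℕ, dl g - ∑ i, c i • dl (gi i) ∈ W1 := fun g => by
    refine ⟨fun i => (Multiplicative.toAdd (e (Abelianization.of g) i)).val, ?_⟩
    have h1 : Abelianization.of g = ∏ i, (Abelianization.of (gi i)) ^
        (Multiplicative.toAdd (e (Abelianization.of g) i)).val := by
      apply e.injective
      rw [map_prod]
      funext j
      rw [Finset.prod_apply, Finset.prod_eq_single j]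
      · haveI := hnz j
        rw [map_pow, show Abelianization.of (gi j) = _ from hgi j, e.apply_symm_apply, Pi.pow_apply,
          Pi.mulSingle_eq_same, ← ofAdd_nsmul, nsmul_one, ZMod.natCast_zmod_val, ofAdd_toAdd]
      · intro i _ hij
        rw [map_pow, show Abelianization.of (gi i) = _ from hgi i, e.apply_symm_apply, Pi.pow_apply,
          Pi.mulSingle_eq_of_ne hij.symm, one_pow]
      · exact fun h => absurd (Finset.mem_univ j) h
    have h2 := congrArg Db h1
    rw [map_prod] at h2
    simp only [map_pow, Db, Abelianization.lift_apply_of] at h2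
    have h3 := congrArg Multiplicative.toAdd h2
    simp only [toAdd_prod, toAdd_pow, D, MonoidHom.mk'_apply, toAdd_ofAdd] at h3
    rw [← Submodule.Quotient.mk_eq_zero, Submodule.Quotient.mk_sub, h3]
    simp only [← Submodule.mkQ_apply, map_sum, map_nsmul, sub_self]
  have hord : ∀ i, n i • dl (gi i) ∈ W1 := fun i => by
    have h1 : Abelianization.of (gi i) ^ n i = 1 := by
      apply e.injective
      rw [map_pow, show Abelianization.of (gi i) = _ from hgi i, e.apply_symm_apply, map_one e]
      funext j
      rw [Pi.pow_apply, Pi.one_apply]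
      rcases eq_or_ne j i with rfl | h
      · rw [Pi.mulSingle_eq_same, ← ofAdd_nsmul, nsmul_one, ZMod.natCast_self]
        rfl
      · rw [Pi.mulSingle_eq_of_ne h, one_pow]
    have h2 := congrArg Db h1
    rw [map_pow, map_one] at h2
    have h3 := congrArg Multiplicative.toAdd h2
    rw [toAdd_pow, toAdd_one] at h3
    rw [← Submodule.Quotient.mk_eq_zero]
    exact h3
  have hspan : ∀ y ∈ W1, ∃ a : G → ℤ[Abelianization G], (∀ g, aug G (a g) = 0) ∧ ∑ g, a g • dl g = y := by
    intro y hy
    rw [show W1 = I • Submodule.span _ (Set.range dl) by rw [span_top]] at hy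
    obtain ⟨a, ha, hsum⟩ := (Submodule.mem_ideal_smul_span_iff_exists_sum I dl y).1 hy
    exact ⟨a, fun g => RingHom.mem_ker.1 (ha g), by
      rw [← hsum]
      exact (Finsupp.sum_fintype a (fun g c => c • dl g) fun g => zero_smul _ (dl g)).symm⟩
  choose c hc using hdec
  choose a ha haw using fun g => hspan _ (hc g)
  choose b hb hbw using fun i => hspan _ (hord i)
  -- a square system of relations
  let v : ι ⊕ G → RelMod G := Sum.elim (fun i => dl (gi i)) dl
  let M : Matrix (ι ⊕ G) (ι ⊕ G) ℤ[Abelianization G] :=
    Matrix.fromBlocks (Matrix.diagonal fun i => (n i : ℤ[Abelianization G])) (Matrix.of fun i g => -b i g)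
      (Matrix.of fun g i => -(c g i : ℤ[Abelianization G])) (1 - Matrix.of a)
  have hMv : ∀ j, ∑ l, M j l • v l = 0 := by
    rintro (i | g)
    · simp only [Fintype.sum_sum_type, M, v, Matrix.fromBlocks_apply₁₁, Matrix.fromBlocks_apply₁₂,
        Sum.elim_inl, Sum.elim_inr, Matrix.of_apply, neg_smul, Finset.sum_neg_distrib, Matrix.diagonal_apply,
        ite_smul, zero_smul, Finset.sum_ite_eq, Finset.mem_univ, if_true, hbw, Nat.cast_smul_eq_nsmul,
        add_neg_cancel]
    · simp only [Fintype.sum_sum_type, M, v, Matrix.fromBlocks_apply₂₁, Matrix.fromBlocks_apply₂₂,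
        Sum.elim_inl, Sum.elim_inr, Matrix.of_apply, neg_smul, Finset.sum_neg_distrib, Matrix.sub_apply,
        Matrix.one_apply, sub_smul, ite_smul, one_smul, zero_smul, Finset.sum_sub_distrib, Finset.sum_ite_eq,
        Finset.mem_univ, if_true, haw, Nat.cast_smul_eq_nsmul]
      abel
  have hann : ∀ y : RelMod G, M.det • y = 0 := by
    intro y
    have hv : ∀ i, M.det • v i = 0 := by
      intro i
      have h : ∑ j, M.adjugate i j • ∑ l, M j l • v l = M.det • v i := by
        simp only [Finset.smul_sum, smul_smul]
        rw [Finset.sum_comm]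
        simp only [← Finset.sum_smul, ← Matrix.mul_apply, Matrix.adjugate_mul, Matrix.smul_apply,
          Matrix.one_apply, smul_eq_mul, mul_ite, mul_one, mul_zero, ite_smul, zero_smul,
          Finset.sum_ite_eq, Finset.mem_univ, if_true]
      rw [← h]
      simp [hMv]
    have hy : y ∈ Submodule.span ℤ[Abelianization G] (Set.range (dl : G → RelMod G)) := by
      rw [span_top]; exact Submodule.mem_top
    induction hy using Submodule.span_induction with
    | mem y hy => obtain ⟨g, rfl⟩ := hy; exact hv (Sum.inr g)
    | zero => exact smul_zero _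
    | add y z _ _ hy hz => rw [smul_add, hy, hz, add_zero]
    | smul r y _ hy => rw [smul_comm, hy, smul_zero]
  have haug : aug G M.det = Nat.card (Abelianization G) := by
    rw [RingHom.map_det]
    have e1 : (aug G).mapMatrix M = Matrix.fromBlocks (Matrix.diagonal fun i => (n i : ℤ)) 0
        (Matrix.of fun g i => -(c g i : ℤ)) 1 := by
      rw [RingHom.mapMatrix_apply, Matrix.fromBlocks_map]
      congr 1
      · rw [Matrix.diagonal_map (map_zero _)]; simp
      · ext i g; simp [hb]
      · ext g i; simp
      · ext g g'; simp [Matrix.one_apply, ha, apply_ite]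
    rw [e1, Matrix.det_fromBlocks_zero₁₂, Matrix.det_diagonal, Matrix.det_one, mul_one,
      Nat.card_congr e.toEquiv, Nat.card_pi, Nat.cast_prod]
    exact Finset.prod_congr rfl fun i _ => by simp
  -- the determinant is the norm
  set N : ℤ[Abelianization G] := ∑ q, MonoidAlgebra.of ℤ _ q with hN
  have hfix : ∀ q, M.det * MonoidAlgebra.of ℤ _ q = M.det := fun q => by
    obtain ⟨g, rfl⟩ := QuotientGroup.mk_surjective q
    have h := congrArg toRing (hann (dl g))
    rw [toRing_smul, map_zero, toRing_dl, mul_sub, mul_one, sub_eq_zero] at h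
    exact h
  have hNfix : ∀ r : ℤ[Abelianization G], r * N = aug G r • N := by
    intro r
    induction r using MonoidAlgebra.induction_on with
    | of q =>
      rw [aug_of, one_smul, hN, Finset.mul_sum]
      exact Fintype.sum_equiv (Equiv.mulLeft q) _ _ fun r => (map_mul _ q r).symm
    | add r s hr hs => rw [add_mul, hr, hs, map_add, add_smul]
    | smul k r hr => rw [smul_mul_assoc, hr, map_zsmul, smul_smul, smul_eq_mul]
  have e2 : (Nat.card (Abelianization G) : ℤ) • (M.det - N) = 0 := by
    have h1 : M.det * N = (Nat.card (Abelianization G) : ℤ) • M.det := by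
      rw [hN, Finset.mul_sum, Finset.sum_congr rfl fun q _ => hfix q, Finset.sum_const,
        Finset.card_univ, Nat.card_eq_fintype_card, natCast_zsmul]
    rw [smul_sub, ← h1, hNfix, haug, sub_self]
  have e3 : M.det = N := sub_eq_zero.1 ((smul_eq_zero.1 e2).resolve_left
    (Nat.cast_ne_zero.2 Nat.card_pos.ne'))
  rw [← e3]
  exact hann x

/-- The principal ideal theorem. -/
theorem transfer_eq_one :
    MonoidHom.transfer (Abelianization.of : ↥(commutator G) →* Abelianization ↥(commutator G)) =
      (1 : G →* Abelianization ↥(commutator G)) := by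
  classical
  ext g
  letI : Fintype (G ⧸ commutator G) := (commutator G).fintypeQuotientOfFiniteIndex
  letI : Fintype (Abelianization G) := Fintype.ofFinite _
  let T : (commutator G).LeftTransversal :=
    ⟨Set.range Quotient.out, Subgroup.isComplement_range_left fun q => QuotientGroup.out_eq' q⟩
  have hT : ∀ q : G ⧸ commutator G, (T.2.leftQuotientEquiv q : G) = q.out := fun q =>
    Subgroup.IsComplement.leftQuotientEquiv_apply (fun q => QuotientGroup.out_eq' q) q
  let h : G ⧸ commutator G → G := fun q => q.out⁻¹ * (g * (g⁻¹ • q).out)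
  have hmem : ∀ q, h q ∈ commutator G := fun q => QuotientGroup.eq.1 (by
    show (q.out : G ⧸ commutator G) = g • (((g⁻¹ • q).out : G) : G ⧸ commutator G)
    rw [QuotientGroup.out_eq', QuotientGroup.out_eq', smul_inv_smul])
  have hdiff : MonoidHom.transfer Abelianization.of g =
      ∏ q, Abelianization.of (⟨h q, hmem q⟩ : commutator G) := by
    rw [MonoidHom.transfer_def _ T, Subgroup.leftTransversals.diff]
    refine Fintype.prod_equiv (Equiv.refl _) _ _ fun q => ?_
    simp only [Equiv.refl_apply]
    congr 1
    refine Subtype.ext ?_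
    show (T.2.leftQuotientEquiv q : G)⁻¹ * ((g • T).2.leftQuotientEquiv q : G) = h q
    rw [Subgroup.smul_apply_eq_smul_apply_inv_smul, hT, hT]
    rfl
  have hsum : ∑ q, dl (h q) = (0 : RelMod G) := by
    have hinv : ∀ q, dl (h q)⁻¹ = -dl (h q) := fun q => by
      have e := dl_mul_left (inv_mem (hmem q)) (h q)
      rw [inv_mul_cancel, dl_one] at e
      exact eq_neg_of_add_eq_zero_left e.symm
    have e1 : ∀ q : G ⧸ commutator G,
        MonoidAlgebra.of ℤ _ (Abelianization.of ((g⁻¹ • q).out⁻¹)) • dl g⁻¹ =
          -dl (h q) + (dl q.out⁻¹ - dl ((g⁻¹ • q).out⁻¹)) := fun q => by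
      rw [of_smul_dl, show (g⁻¹ • q).out⁻¹ * g⁻¹ = (h q)⁻¹ * q.out⁻¹ by simp only [h]; group,
        dl_mul_left (inv_mem (hmem q)), hinv]
      abel
    have e2 := Finset.sum_congr rfl (fun q (_ : q ∈ Finset.univ) => e1 q)
    have e4 : ∑ q : G ⧸ commutator G, dl ((g⁻¹ • q).out⁻¹) = ∑ q : G ⧸ commutator G, dl q.out⁻¹ :=
      Fintype.sum_equiv (MulAction.toPerm g⁻¹) _ _ fun q => rfl
    rw [← Finset.sum_smul, Finset.sum_add_distrib, Finset.sum_sub_distrib] at e2
    rw [e4, sub_self, add_zero, Finset.sum_neg_distrib] at e2
    have e3 : (∑ q : G ⧸ commutator G, MonoidAlgebra.of ℤ _ (Abelianization.of ((g⁻¹ • q).out⁻¹))) =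
        ∑ q : Abelianization G, MonoidAlgebra.of ℤ _ q := by
      let σ : G ⧸ commutator G ≃ Abelianization G :=
        (MulAction.toPerm g⁻¹ : Equiv.Perm (G ⧸ commutator G)).trans (Equiv.inv (Abelianization G))
      refine Fintype.sum_equiv σ _ _ fun q => ?_
      congr 1
      show Abelianization.of ((g⁻¹ • q).out⁻¹) = ((g⁻¹ • q : G ⧸ commutator G) : Abelianization G)⁻¹
      rw [map_inv]
      exact congrArg Inv.inv (QuotientGroup.out_eq' (g⁻¹ • q) : Abelianization.of _ = _)
    rw [e3, norm_smul_eq_zero] at e2
    exact neg_eq_zero.1 e2.symm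
  have := congrArg toAb hsum
  rw [map_sum, map_zero, Finset.sum_congr rfl fun q _ => toAb_dl (hmem q), ← ofMul_prod] at this
  rw [hdiff, MonoidHom.one_apply]
  exact Additive.ofMul.injective this

end

end Cfsg.Lib.Transfer.PrincipalIdeal
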