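import Mathlib
import Cfsg.Agent.Lib.Solv.Frobenius
import Cfsg.Agent.Lib.ZStar.UniqueInvolution

/-!
Frobenius complements containing a quaternion group: the kernel has odd square order.
-/

set_option autoImplicit false

namespace Cfsg.Lib.Transfer

open Subgroup
open scoped Pointwise

universe u

theorem even_exponent_of_anticommute {p : ℕ} [hp : Fact p.Prime] (hp2 : p ≠ 2) {V : Type u} [AddCommGroup V]
    [Module (ZMod p) V] [Finite V] (I J : V →ₗ[ZMod p] V) (hI : Function.Injective I) (hJ : Function.Injective J)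
    (h : ∀ v, I (J v) = -J (I v)) : IsSquare (Nat.card V) := by
  haveI : Module.Finite (ZMod p) V := Module.Finite.of_finite
  have hcomp : I ∘ₗ J = (-1 : ZMod p) • (J ∘ₗ I) := LinearMap.ext fun v => by simp [h v]
  have hd : ∀ f : V →ₗ[ZMod p] V, Function.Injective f → LinearMap.det f ≠ 0 := fun f hf =>
    IsUnit.ne_zero (LinearEquiv.isUnit_det' (LinearEquiv.ofBijective f
      ⟨hf, Finite.injective_iff_surjective.1 hf⟩))
  have h1 := congrArg LinearMap.det hcomp
  rw [LinearMap.det_smul, LinearMap.det_comp, LinearMap.det_comp, mul_comm (LinearMap.det J)] at h1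
  have h2 : ((-1 : ZMod p)) ^ Module.finrank (ZMod p) V = 1 := by
    have := mul_ne_zero (hd I hI) (hd J hJ)
    exact mul_right_cancel₀ this (by rw [one_mul]; exact h1.symm)
  have hne : (-1 : ZMod p) ≠ 1 := by
    haveI : Fact (2 < p) := ⟨lt_of_le_of_ne hp.out.two_le (Ne.symm hp2)⟩
    exact ZMod.neg_one_ne_one
  obtain ⟨c, hc⟩ := (neg_one_pow_eq_one_iff_even hne).1 h2
  rw [Module.natCard_eq_pow_finrank (K := ZMod p) (V := V), Nat.card_zmod, hc]
  exact ⟨p ^ c, pow_add p c c⟩

/-- A finite abelian group of odd order with two anticommuting automorphisms has square order. -/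
theorem isSquare_card_of_anticommute : ∀ (n : ℕ) (K : Type u) [CommGroup K] [Finite K], Nat.card K ≤ n →
    Odd (Nat.card K) → ∀ I J : K ≃* K, (∀ k, I (J k) = (J (I k))⁻¹) → IsSquare (Nat.card K) := by
  intro n
  induction n with
  | zero =>
    intro K _ _ hn
    have := Nat.card_pos (α := K)
    omega
  | succ n ih =>
  intro K _ _ hn hodd I J h
  by_cases h1 : Nat.card K = 1
  · exact ⟨1, by rw [h1]⟩
  obtain ⟨p, hp, hpd⟩ := Nat.exists_prime_and_dvd h1
  haveI := Fact.mk hp
  have hp2 : p ≠ 2 := fun e => by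
    subst e
    exact (Nat.not_even_iff_odd.2 hodd) (even_iff_two_dvd.2 hpd)
  let φ : K →* K := powMonoidHom p
  have hker : ∀ k : K, k ∈ φ.ker ↔ k ^ p = 1 := fun k => Iff.rfl
  letI : Module (ZMod p) (Additive φ.ker) := AddCommGroup.zmodModule (fun x => by
    apply (Additive.toMul (α := φ.ker)).injective
    show (Additive.toMul x) ^ p = 1
    exact Subtype.ext ((hker _).1 (Additive.toMul x).2))
  let lift : (K ≃* K) → (φ.ker →* φ.ker) := fun f =>
    ((f.toMonoidHom.comp φ.ker.subtype).codRestrict φ.ker fun k => by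
      rw [hker]
      show f (k : K) ^ p = 1
      rw [← map_pow, (hker _).1 k.2, map_one])
  let lin : (K ≃* K) → (Additive φ.ker →+ Additive φ.ker) := fun f => MonoidHom.toAdditive (lift f)
  have hinj : ∀ f : K ≃* K, Function.Injective (lift f) := fun f x y e =>
    Subtype.ext (f.injective (congrArg Subtype.val e))
  have hV : IsSquare (Nat.card φ.ker) := by
    have := even_exponent_of_anticommute hp2 ((lin I).toZModLinearMap p) ((lin J).toZModLinearMap p)
      (fun x y e => hinj I e) (fun x y e => hinj J e) fun v => by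
      apply (Additive.toMul (α := φ.ker)).injective
      apply Subtype.ext
      exact h _
    exact this
  have hmul : Nat.card K = Nat.card φ.ker * Nat.card φ.range := by
    rw [← Subgroup.card_mul_index φ.ker, Subgroup.index_ker]
  have hrlt : Nat.card φ.range ≤ n := by
    obtain ⟨x, hx⟩ := exists_prime_orderOf_dvd_card' p hpd
    have h2 : 1 < Nat.card φ.ker := by
      rw [one_lt_card_iff_ne_bot]
      intro e
      have : x ∈ φ.ker := (hker x).2 (hx ▸ pow_orderOf_eq_one x)
      rw [e, mem_bot] at this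
      rw [this, orderOf_one] at hx
      exact hp.ne_one hx.symm
    have h3 := Nat.card_pos (α := φ.range)
    have : 2 * Nat.card φ.range ≤ Nat.card K := by rw [hmul]; exact Nat.mul_le_mul_right _ h2
    omega
  let res : (f : K ≃* K) → (φ.range ≃* φ.range) := fun f =>
    (f.subgroupMap φ.range).trans (MulEquiv.subgroupCongr (by
      ext y
      constructor
      · rintro ⟨_, ⟨x, rfl⟩, rfl⟩
        exact ⟨f x, (map_pow f x p).symm⟩
      · rintro ⟨x, rfl⟩
        refine ⟨φ (f.symm x), ⟨_, rfl⟩, ?_⟩
        show f ((f.symm x) ^ p) = x ^ p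
        rw [map_pow, f.apply_symm_apply]))
  rw [hmul]
  refine IsSquare.mul hV (ih φ.range hrlt (Odd.of_dvd_nat hodd (card_subgroup_dvd_card _)) (res I) (res J) fun k => ?_)
  exact Subtype.ext (h k)

/-- A Frobenius complement containing `i, j` generating a quaternion group. -/
theorem kernel_of_quaternion {G : Type u} [Group G] [Finite G] {H : Subgroup G} (hH : Cfsg.IsFrobeniusComplement H)
    {i j : G} (hi : i ∈ H) (hj : j ∈ H) (hz : orderOf (i ^ 2) = 2) (hij : j ^ 2 = i ^ 2) (hconj : j * i * j⁻¹ = i⁻¹) :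
    Odd (Nat.card (Cfsg.frobeniusKernel H)) ∧ IsSquare (Nat.card (Cfsg.frobeniusKernel H)) := by
  obtain ⟨K, hKn, hKeq, hc⟩ := Cfsg.Lib.Solv.exists_frobeniusKernel hH
  haveI := hKn
  set z := i ^ 2 with hzdef
  have hzH : z ∈ H := H.pow_mem hi 2
  have hz1 : z ≠ 1 := fun e => by rw [e, orderOf_one] at hz; omega
  have hz2 : z * z = 1 := by rw [← pow_two, ← hz, pow_orderOf_eq_one]
  have hcard : Nat.card (Cfsg.frobeniusKernel H) = Nat.card K := by rw [← hKeq]; rfl
  rw [hcard]
  have hfix := Cfsg.Lib.Solv.frob_fpf hH hc.disjoint.eq_bot hzH hz1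
  let c : G →* MulAut K := MulAut.conjNormal
  have hcc : ∀ (a : G) (k : K), ((c a k : K) : G) = a * k * a⁻¹ := fun a k => MulAut.conjNormal_apply a k
  have hinv : ∀ k : K, c z k = k⁻¹ := by
    intro k
    let f : K → K := fun x => x⁻¹ * c z x
    have hf : Function.Injective f := by
      intro x y e
      have e' : y * x⁻¹ = c z (y * x⁻¹) := by
        rw [map_mul, map_inv]
        calc y * x⁻¹ = y * (x⁻¹ * c z x) * (c z x)⁻¹ := by group
          _ = y * (y⁻¹ * c z y) * (c z x)⁻¹ := by rw [show x⁻¹ * c z x = y⁻¹ * c z y from e]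
          _ = _ := by group
      have hm : ((y * x⁻¹ : K) : G) ∈ K ⊓ centralizer ({z} : Set G) := by
        refine ⟨(y * x⁻¹).2, mem_centralizer_singleton_iff.2 ?_⟩
        have := congrArg Subtype.val e'
        rw [hcc] at this
        exact (mul_inv_eq_iff_eq_mul.1 this.symm).symm
      rw [hfix, mem_bot, OneMemClass.coe_eq_one, mul_inv_eq_one] at hm
      exact hm.symm
    obtain ⟨x, rfl⟩ := (Finite.injective_iff_surjective.1 hf) k
    show c z (x⁻¹ * c z x) = (x⁻¹ * c z x)⁻¹
    rw [map_mul, map_inv, show c z (c z x) = x by rw [← MulAut.mul_apply, ← map_mul, hz2, map_one]; rfl]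
    group
  letI : CommGroup K :=
    { (inferInstance : Group K) with
      mul_comm := fun a b => by
        have := hinv (a⁻¹ * b⁻¹)
        rw [map_mul, hinv, hinv, inv_inv, inv_inv, mul_inv_rev, inv_inv, inv_inv] at this
        exact this }
  have hKodd : Odd (Nat.card K) := by
    rw [← Nat.not_even_iff_odd, even_iff_two_dvd]
    intro h2
    obtain ⟨k, hk⟩ := exists_prime_orderOf_dvd_card' 2 h2
    have hk2 : k⁻¹ = k := inv_eq_of_mul_eq_one_right (by rw [← pow_two, ← hk, pow_orderOf_eq_one])
    have hm : (k : G) ∈ K ⊓ centralizer ({z} : Set G) := by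
      refine ⟨k.2, mem_centralizer_singleton_iff.2 ?_⟩
      have h1 : z * (k : G) * z⁻¹ = k := by rw [← hcc, hinv, hk2]
      exact (mul_inv_eq_iff_eq_mul.1 h1).symm
    rw [hfix, mem_bot, OneMemClass.coe_eq_one] at hm
    rw [hm, orderOf_one] at hk
    omega
  refine ⟨hKodd, isSquare_card_of_anticommute _ K le_rfl hKodd (c i) (c j) fun k => ?_⟩
  have hji : j * i = z * (i * j) := by
    have h1 : i⁻¹ = z * i := by
      rw [inv_eq_iff_mul_eq_one, hzdef, ← pow_succ, ← pow_succ', ← hz2]
      rw [hzdef, ← pow_add]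
    calc j * i = j * i * j⁻¹ * j := by group
      _ = i⁻¹ * j := by rw [hconj]
      _ = _ := by rw [h1, mul_assoc]
  have h2 : c j (c i k) = c z (c i (c j k)) := by
    rw [← MulAut.mul_apply, ← map_mul, hji, map_mul, map_mul]
    rfl
  rw [h2, hinv, inv_inv]

/-- A non-cyclic Sylow subgroup of a complement yields a quaternion pair. -/
theorem exists_quaternion_pair {G : Type u} [Group G] [Finite G] {H : Subgroup G} (hH : Cfsg.IsFrobeniusComplement H)
    {p : ℕ} [hp : Fact p.Prime] (P : Sylow p H) (hP : ¬ IsCyclic P) :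
    ∃ i j : G, i ∈ H ∧ j ∈ H ∧ orderOf (i ^ 2) = 2 ∧ j ^ 2 = i ^ 2 ∧ j * i * j⁻¹ = i⁻¹ := by
  have huniq : ∀ x y : (P : Subgroup H), orderOf x = p → orderOf y = p → y ∈ zpowers x := by
    haveI : Nontrivial (P : Subgroup H) := by
      by_contra hn
      rw [not_nontrivial_iff_subsingleton] at hn
      exact hP inferInstance
    haveI := P.isPGroup'.center_nontrivial
    have hpd : p ∣ Nat.card (center (P : Subgroup H)) := by
      obtain ⟨k, hk0, hk⟩ := (P.isPGroup'.to_subgroup (center (P : Subgroup H))).nontrivial_iff_card.1 inferInstance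
      rw [hk]; exact dvd_pow_self p (by omega)
    obtain ⟨w, hw⟩ := exists_prime_orderOf_dvd_card' p hpd
    have key : ∀ y : (P : Subgroup H), orderOf y = p → y ∈ zpowers (w : (P : Subgroup H)) := by
      intro y hy
      by_contra hne
      obtain ⟨K, hKn, hKeq, hc⟩ := Cfsg.Lib.Solv.exists_frobeniusKernel hH
      haveI := hKn
      let ι : (P : Subgroup H) →* G := H.subtype.comp (P : Subgroup H).subtype
      have hι : Function.Injective ι := H.subtype_injective.comp (P : Subgroup H).subtype_injective
      set A := closure ({(w : (P : Subgroup H)), y} : Set (P : Subgroup H))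
      have hcomm : IsMulCommutative A := Subgroup.isMulCommutative_closure (by
        rintro a (rfl | rfl) b (rfl | rfl)
        · rfl
        · exact (mem_center_iff.1 w.2 _).symm
        · exact mem_center_iff.1 w.2 _
        · rfl)
      have hnc : ¬ IsCyclic A := by
        intro hcy
        haveI := Fintype.ofFinite A
        have h1 : orderOf (⟨w, subset_closure (Set.mem_insert _ _)⟩ : A) = p := by
          rw [Subgroup.orderOf_mk, Subgroup.orderOf_coe, hw]
        have h2 : orderOf (⟨y, subset_closure (Set.mem_insert_of_mem _ rfl)⟩ : A) = p := by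
          rw [Subgroup.orderOf_mk, hy]
        refine hne ?_
        have hmem : (⟨y, subset_closure (Set.mem_insert_of_mem _ rfl)⟩ : A) ∈
            zpowers (⟨w, subset_closure (Set.mem_insert _ _)⟩ : A) := by
          have hexp : ∀ a ∈ A, a ^ p = 1 := by
            intro a ha
            induction ha using closure_induction with
            | mem x hx =>
              rcases hx with rfl | rfl
              · exact orderOf_dvd_iff_pow_eq_one.1 (dvd_of_eq (by rw [Subgroup.orderOf_coe, hw]))
              · exact orderOf_dvd_iff_pow_eq_one.1 (dvd_of_eq hy)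
            | one => exact one_pow p
            | mul u v hu hv iu iv =>
              rw [Commute.mul_pow (congrArg Subtype.val (hcomm.is_comm.comm ⟨u, hu⟩ ⟨v, hv⟩)), iu, iv, one_mul]
            | inv u hu iu => rw [inv_pow, iu, inv_one]
          have hd : Nat.card A ∣ p := by
            rw [← IsCyclic.exponent_eq_card]
            exact Monoid.exponent_dvd_of_forall_pow_eq_one fun a => Subtype.ext (hexp a a.2)
          have htop : zpowers (⟨w, subset_closure (Set.mem_insert _ _)⟩ : A) = ⊤ := by
            refine eq_top_of_card_eq _ (Nat.dvd_antisymm (card_subgroup_dvd_card _) ?_)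
            rwa [Nat.card_zpowers, h1]
          rw [htop]
          exact mem_top _
        obtain ⟨t, ht⟩ := hmem
        exact ⟨t, congrArg Subtype.val ht⟩
      haveI : IsMulCommutative (A.map ι) := inferInstance
      have hncι : ¬ IsCyclic (A.map ι) := fun h => hnc
        ((MulEquiv.isCyclic (A.equivMapOfInjective ι hι)).2 h)
      have hle : (A.map ι : Subgroup G) ≤ H := by rintro _ ⟨a, -, rfl⟩; exact ((a : H)).2
      have := Cfsg.Lib.Solv.le_of_fixed_le (A.map ι) K ⊥ hncι (by rw [Subgroup.normalizer_eq_top]; exact le_top)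
        (by
          refine Nat.Coprime.coprime_dvd_left (card_dvd_of_le hle) ?_
          rw [← hc.index_eq_card]
          exact Cfsg.Lib.Solv.frob_coprime_index hH)
        (fun a ha ha1 => (Cfsg.Lib.Solv.frob_fpf hH hc.disjoint.eq_bot (hle ha) ha1).le)
      have hK1 : K = ⊥ := le_bot_iff.1 this
      rw [hK1, Subgroup.isComplement'_bot_left] at hc
      exact hH.2.1 hc
    intro x y hx hy
    have h1 := key y hy
    have h2 := key x hx
    have e : zpowers x = zpowers (w : (P : Subgroup H)) :=
      eq_of_le_of_card_ge (zpowers_le.2 h2) (by rw [Nat.card_zpowers, Nat.card_zpowers, hx, Subgroup.orderOf_coe, hw])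
    rw [e]; exact h1
  rcases Cfsg.Lib.ZStar.isCyclic_or_inverted P.isPGroup' huniq with h | ⟨rfl, a, g, ha4, -, -, hga, hg2⟩
  · exact absurd h hP
  obtain ⟨k, hk⟩ := IsPGroup.iff_orderOf.1 P.isPGroup' a
  have hk2 : 2 ≤ k := by
    by_contra hlt
    rw [hk] at ha4
    have := Nat.pow_le_pow_right (show 1 ≤ 2 by omega) (show k ≤ 1 by omega)
    omega
  obtain ⟨m, hm⟩ : ∃ m, orderOf a = 4 * m := ⟨2 ^ (k - 2), by rw [hk, show (4:ℕ) = 2 ^ 2 from rfl, ← pow_add]; congr 1; omega⟩
  refine ⟨((a ^ m : (P : Subgroup H)) : H), ((g : H) : G), ((a ^ m : (P : Subgroup H)) : H).2, (g : H).2, ?_, ?_, ?_⟩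
  · have : orderOf ((a ^ m) ^ 2) = 2 := by
      rw [← pow_mul, show m * 2 = orderOf a / 2 by omega, orderOf_pow_orderOf_div (by omega) ⟨2 * m, by omega⟩]
    rw [← Subgroup.orderOf_coe, ← Subgroup.orderOf_coe] at this
    simpa using this
  · have : g ^ 2 = (a ^ m) ^ 2 := by rw [hg2, ← pow_mul]; congr 1; omega
    exact congrArg (fun t : (P : Subgroup H) => ((t : H) : G)) this
  · have : g * a ^ m * g⁻¹ = (a ^ m)⁻¹ := by rw [← conj_pow, hga, inv_pow]
    exact congrArg (fun t : (P : Subgroup H) => ((t : H) : G)) this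

end Cfsg.Lib.Transfer
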