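import Mathlib
import Cfsg.Prelude.Def_Transfer
import Cfsg.Agent.Lib.Transfer.HallWielandt
import Cfsg.Agent.Lib.Transfer.NormalPComplement
import Cfsg.Agent.Lib.Solv.PGroupBasic

/-!
Transfer with a weakly closed subgroup: the iterated commutator criterion.
-/

set_option autoImplicit false
set_option linter.style.haveILetI false
set_option linter.unusedVariables false

open scoped Classical commutatorElement

namespace Cfsg.Lib.Transfer.WCIter

open Subgroup

universe u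

variable {G : Type u} [Group G] [Finite G] {p : ℕ} [hp : Fact p.Prime]

local notation "A" => Multiplicative (ZMod p)

/-- The hypothesis on iterated commutators. -/
def IterGood (p : ℕ) (S Q : Subgroup G) : Prop :=
  ∀ x ∈ S, ∀ z ∈ Q, ∀ W₀ : Subgroup ↥Q, IsCoatom W₀ →
    (fun y : G => y⁻¹ * z⁻¹ * y * z)^[p - 1] x ∈ W₀.map Q.subtype →
    (fun y : G => y⁻¹ * z⁻¹ * y * z)^[p - 1] x ∈ ((frattini ↥W₀).map W₀.subtype).map Q.subtype

theorem hom_kills_frattini {U : Type*} [Group U] [Finite U] (f : U →* A) {u : U}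
    (hu : u ∈ frattini U) : f u = 1 := by
  refine Cfsg.Lib.Solv.frattini_le_of_elementary_quotient (p := p) f.ker
    (Abelianization.commutator_subset_ker f) (fun x => ?_) hu
  rw [MonoidHom.mem_ker, map_pow]
  exact ofAdd_toAdd (f x) ▸ (by rw [← ofAdd_nsmul, nsmul_eq_mul, ZMod.natCast_self, zero_mul, ofAdd_zero])

omit [Finite G] in
theorem iterate_comm_mem {S Q : Subgroup G} (hSQ : S ≤ normalizer (Q : Set G)) {x z : G} (hx : x ∈ S)
    (hz : z ∈ Q) : (fun y : G => y⁻¹ * z⁻¹ * y * z)^[p - 1] x ∈ Q := by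
  have hp2 := hp.out.two_le
  obtain ⟨k, hk⟩ : ∃ k, p - 1 = k + 1 := ⟨p - 2, by omega⟩
  rw [hk]
  induction k generalizing x with
  | zero => exact mul_mem ((mem_normalizer_iff''.1 (hSQ hx) _).1 (inv_mem hz)) hz
  | succ k ih =>
    clear hk
    have key : ∀ n : ℕ, (fun y : G => y⁻¹ * z⁻¹ * y * z)^[n + 1] x ∈ Q := by
      intro n
      induction n with
      | zero => exact mul_mem ((mem_normalizer_iff''.1 (hSQ hx) _).1 (inv_mem hz)) hz
      | succ n ihn =>
        rw [Function.iterate_succ_apply']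
        exact mul_mem (mul_mem (mul_mem (inv_mem ihn) (inv_mem hz)) ihn) hz
    exact key _

/-- The product over one orbit of cosets. -/
theorem orbit_prod_one (S : Sylow p G) (Q M : Subgroup G) [Fintype (G ⧸ M)] (θ : M →* A) (g x : G)
    (hQS : Q ≤ (S : Subgroup G)) (hSQ : (S : Subgroup G) ≤ normalizer (Q : Set G))
    (hx : x ∈ (S : Subgroup G))
    (hvan : ∀ (k : ℕ) (a : G) (h : a⁻¹ * x ^ k * a ∈ M), p ∣ k → θ ⟨_, h⟩ = 1)
    (hgood : IterGood p (S : Subgroup G) Q)
    (hQR : ¬ Q ≤ (S : Subgroup G) ⊓ M.map (MulAut.conj g).toMonoidHom) :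
    ∏ q ∈ Finset.univ.filter (fun q : G ⧸ M => q ∈ MulAction.orbit (S : Subgroup G) (g : G ⧸ M)),
      Cfsg.Lib.Yoshida.fixedVal θ x q = 1 := by
  set R : Subgroup G := (S : Subgroup G) ⊓ M.map (MulAut.conj g).toMonoidHom
  have hR : ∀ s : G, s ∈ R ↔ s ∈ (S : Subgroup G) ∧ g⁻¹ * s * g ∈ M := by
    intro s
    refine ⟨fun ⟨hs, m, hm, he⟩ => ⟨hs, ?_⟩, fun ⟨hs, hsm⟩ => ⟨hs, _, hsm, by simp [mul_assoc]⟩⟩
    rw [← he]; simpa [mul_assoc] using hm
  have hcoset : ∀ s t : G, s ∈ (S : Subgroup G) → t ∈ (S : Subgroup G) →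
      (((s * g : G) : G ⧸ M) = ((t * g : G) : G ⧸ M) ↔ s⁻¹ * t ∈ R) := by
    intro s t hs ht
    rw [QuotientGroup.eq, hR, show (s * g)⁻¹ * (t * g) = g⁻¹ * (s⁻¹ * t) * g by group]
    exact ⟨fun h => ⟨mul_mem (inv_mem hs) ht, h⟩, fun h => h.2⟩
  set T : Subgroup G := R ⊔ Q
  have hTS : T ≤ (S : Subgroup G) := sup_le inf_le_left hQS
  haveI : Group.IsNilpotent T := (S.isPGroup'.to_le hTS).isNilpotent
  obtain ⟨K, hK, hRK⟩ : ∃ K : Subgroup T, IsCoatom K ∧ R.subgroupOf T ≤ K :=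
    (eq_top_or_exists_le_coatom (R.subgroupOf T)).resolve_left fun e =>
      hQR (le_sup_right.trans (subgroupOf_eq_top.1 e))
  haveI : K.Normal := Cfsg.Lib.Solv.coatom_normal_of_nilpotent hK
  have hKi : K.index = p := Cfsg.Lib.Solv.coatom_index_eq_prime (S.isPGroup'.to_le hTS) hK
  obtain ⟨z, hzQ, hzK⟩ : ∃ z, ∃ hz : z ∈ Q, (⟨z, mem_sup_right hz⟩ : T) ∉ K := by
    by_contra hc
    push Not at hc
    refine hK.1 (eq_top_iff.2 fun t _ => ?_)
    have hle : T ≤ K.map T.subtype :=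
      sup_le (fun r hr => ⟨⟨r, mem_sup_left hr⟩, hRK (mem_subgroupOf.2 hr), rfl⟩)
        (fun q hq => ⟨⟨q, mem_sup_right hq⟩, hc q hq, rfl⟩)
    obtain ⟨t', ht', e⟩ := hle t.2
    exact (Subtype.ext e : t' = t) ▸ ht'
  set T0 : Subgroup G := K.map T.subtype
  have hT0 : ∀ t : G, t ∈ T0 ↔ ∃ h : t ∈ T, (⟨t, h⟩ : T) ∈ K := fun t =>
    ⟨fun ⟨t', h, e⟩ => e ▸ ⟨t'.2, h⟩, fun ⟨h, hk⟩ => ⟨_, hk, rfl⟩⟩
  have hT0S : T0 ≤ (S : Subgroup G) := (map_subtype_le _).trans hTS
  have hRT0 : R ≤ T0 := fun r hr => ⟨⟨r, mem_sup_left hr⟩, hRK (mem_subgroupOf.2 hr), rfl⟩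
  have hzT : z ∈ T := mem_sup_right hzQ
  have hzS : z ∈ (S : Subgroup G) := hQS hzQ
  have hzT0 : z ∉ T0 := fun h => hzK ((hT0 z).1 h).2
  have hzp : z ^ p ∈ T0 := by
    refine ⟨(⟨z, hzT⟩ : T) ^ p, ?_, by simp⟩
    rw [SetLike.mem_coe, ← hKi]
    exact Subgroup.pow_index_mem K _
  have hzN : ∀ t ∈ T0, z⁻¹ * t * z ∈ T0 := by
    intro t ht
    obtain ⟨h, hk⟩ := (hT0 t).1 ht
    refine ⟨(⟨z, hzT⟩ : T)⁻¹ * ⟨t, h⟩ * (⟨z, hzT⟩ : T), ?_, by simp⟩
    have := Subgroup.Normal.conj_mem (inferInstance : K.Normal) _ hk (⟨z, hzT⟩ : T)⁻¹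
    simpa using this
  -- the transfer into the maximal subgroup
  set R0 : Subgroup T0 := R.subgroupOf T0
  letI := Fintype.ofFinite (T0 ⧸ R0)
  let α : R0 →* A :=
    { toFun := fun r => θ ⟨g⁻¹ * ((r : T0) : G) * g, ((hR _).1 (mem_subgroupOf.1 r.2)).2⟩
      map_one' := by
        rw [← map_one θ]; exact congrArg θ (Subtype.ext (by simp))
      map_mul' := fun a b => by
        rw [← map_mul]; exact congrArg θ (Subtype.ext (by simp [mul_assoc])) }
  let Ψ : T0 →* A := MonoidHom.transfer α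
  let coset : G → G ⧸ M := fun s => ((s * g : G) : G ⧸ M)
  have hval : ∀ s : G, s ∈ (S : Subgroup G) → Cfsg.Lib.Yoshida.fixedVal θ x (coset s) =
      if h : s⁻¹ * x * s ∈ R then θ ⟨g⁻¹ * (s⁻¹ * x * s) * g, ((hR _).1 h).2⟩ else 1 := by
    intro s hs
    have e : (s * g)⁻¹ * x * (s * g) = g⁻¹ * (s⁻¹ * x * s) * g := by group
    rw [Cfsg.Lib.Yoshida.fixedVal_mk]
    by_cases h : s⁻¹ * x * s ∈ R
    · rw [dif_pos h, dif_pos (by rw [e]; exact ((hR _).1 h).2)]
      exact congrArg θ (Subtype.ext e)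
    · rw [dif_neg h, dif_neg]
      intro h'
      exact h ((hR _).2 ⟨mul_mem (mul_mem (inv_mem hs) hx) hs, e ▸ h'⟩)
  have hΨ : ∀ (s : G) (hs : s ∈ (S : Subgroup G)) (hu : s⁻¹ * x * s ∈ T0),
      ∏ t : T0 ⧸ R0, Cfsg.Lib.Yoshida.fixedVal θ x (coset (s * ((t.out : T0) : G))) =
        Ψ ⟨_, hu⟩ := by
    intro s hs hu
    have hpj : ∃ j : ℕ, (⟨_, hu⟩ : T0) ^ p ^ j = 1 := (S.isPGroup'.to_le hT0S) _
    rw [show Ψ ⟨_, hu⟩ = _ from HallWielandt.transfer_eq_prod_fixed α _ hpj (fun k a h hk => ?_)]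
    · refine Finset.prod_congr rfl fun t _ => ?_
      rw [hval _ (mul_mem hs (hT0S t.out.2)), Cfsg.Lib.Yoshida.fixedVal]
      have e : (s * ((t.out : T0) : G))⁻¹ * x * (s * ((t.out : T0) : G)) =
          ((t.out⁻¹ * ⟨_, hu⟩ * t.out : T0) : G) := by simp [mul_assoc]
      by_cases h : (s * ((t.out : T0) : G))⁻¹ * x * (s * ((t.out : T0) : G)) ∈ R
      · rw [dif_pos h, dif_pos (mem_subgroupOf.2 (e ▸ h))]
        exact congrArg θ (Subtype.ext (congrArg (fun v => g⁻¹ * v * g) e))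
      · rw [dif_neg h, dif_neg fun h' => h (e.symm ▸ mem_subgroupOf.1 h')]
    · have e : g⁻¹ * ((a⁻¹ * (⟨_, hu⟩ : T0) ^ k * a : T0) : G) * g =
          (s * (a : G) * g)⁻¹ * x ^ k * (s * (a : G) * g) := by
        have hc : (s⁻¹ * x * s) ^ k = s⁻¹ * x ^ k * s := by
          have := conj_pow (i := k) (a := s⁻¹) (b := x)
          rwa [inv_inv] at this
        push_cast [hc]
        group
      have h2 := ((hR _).1 (mem_subgroupOf.1 h)).2
      refine Eq.trans (congrArg θ (Subtype.ext e)) (hvan k _ (e ▸ h2) hk)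
  -- the cosets of the maximal subgroup
  set T0' : Subgroup (S : Subgroup G) := T0.subgroupOf (S : Subgroup G)
  letI := Fintype.ofFinite ((S : Subgroup G) ⧸ T0')
  set O := Finset.univ.filter (fun q : G ⧸ M => q ∈ MulAction.orbit (S : Subgroup G) (g : G ⧸ M))
  have hrep : ∀ q : G ⧸ M, ∃ s : (S : Subgroup G), q ∈ O → coset s = q := by
    intro q
    by_cases hq : q ∈ O
    · obtain ⟨s, hs⟩ := (Finset.mem_filter.1 hq).2
      exact ⟨s, fun _ => hs⟩
    · exact ⟨1, fun h => absurd h hq⟩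
  choose rep hrepq using hrep
  let F : (S : Subgroup G) ⧸ T0' → A := fun c =>
    ∏ t : T0 ⧸ R0, Cfsg.Lib.Yoshida.fixedVal θ x (coset ((c.out : G) * ((t.out : T0) : G)))
  have hfib : ∏ q ∈ O, Cfsg.Lib.Yoshida.fixedVal θ x q = ∏ c, F c := by
    rw [← Finset.prod_fiberwise O (fun q => (rep q : (S : Subgroup G) ⧸ T0'))]
    refine Finset.prod_congr rfl fun c _ => (Finset.prod_bij
      (fun t _ => coset ((c.out : G) * ((t.out : T0) : G))) ?_ ?_ ?_ fun t _ => rfl).symm
    · intro t _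
      have hs : (c.out : G) * ((t.out : T0) : G) ∈ (S : Subgroup G) := mul_mem c.out.2 (hT0S t.out.2)
      have hO : coset ((c.out : G) * ((t.out : T0) : G)) ∈ O :=
        Finset.mem_filter.2 ⟨Finset.mem_univ _, ⟨⟨_, hs⟩, rfl⟩⟩
      refine Finset.mem_filter.2 ⟨hO, ?_⟩
      have h1 := (hcoset _ _ (rep _).2 hs).1 (hrepq _ hO)
      conv_rhs => rw [← QuotientGroup.out_eq' c]
      refine QuotientGroup.eq.2 (mem_subgroupOf.2 ?_)
      have h2 := mul_mem (hRT0 h1) (inv_mem (t.out : T0).2)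
      simpa [mul_assoc, coset] using h2
    · intro t _ t' _ e
      have h1 := (hcoset _ _ (mul_mem c.out.2 (hT0S t.out.2)) (mul_mem c.out.2 (hT0S t'.out.2))).1 e
      rw [← QuotientGroup.out_eq' t, ← QuotientGroup.out_eq' t']
      refine QuotientGroup.eq.2 (mem_subgroupOf.2 ?_)
      simpa [mul_assoc] using h1
    · intro q hq
      obtain ⟨hqO, hqc⟩ := Finset.mem_filter.1 hq
      have h1 : (c.out)⁻¹ * rep q ∈ T0' := by
        rw [← QuotientGroup.eq, QuotientGroup.out_eq']; exact hqc.symm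
      have h1' : (c.out : G)⁻¹ * (rep q : G) ∈ T0 := by simpa using mem_subgroupOf.1 h1
      refine ⟨((⟨_, h1'⟩ : T0) : T0 ⧸ R0), Finset.mem_univ _, ?_⟩
      have h2 := Quotient.exact' (QuotientGroup.out_eq' ((⟨_, h1'⟩ : T0) : T0 ⧸ R0))
      rw [QuotientGroup.leftRel_apply, mem_subgroupOf] at h2
      conv_rhs => rw [← hrepq q hqO]
      refine (hcoset _ _ (mul_mem c.out.2 (hT0S (Subtype.mem _))) (rep q).2).2 ?_
      simpa [mul_assoc] using h2
  rw [hfib]
  -- the cycles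
  let z' : (S : Subgroup G) := ⟨z, hzS⟩
  let σf : (S : Subgroup G) ⧸ T0' → (S : Subgroup G) ⧸ T0' :=
    Quotient.map' (fun s => s * z') fun s t hst => by
      rw [QuotientGroup.leftRel_apply, mem_subgroupOf] at hst ⊢
      simpa [z', mul_assoc] using hzN _ hst
  have hσ : ∀ (n : ℕ) (c : (S : Subgroup G) ⧸ T0'),
      σf^[n] c = ((c.out * z' ^ n : (S : Subgroup G)) : (S : Subgroup G) ⧸ T0') := by
    intro n c
    induction n with
    | zero => simp
    | succ n ih =>
      rw [Function.iterate_succ_apply', ih, pow_succ, ← mul_assoc]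
      rfl
  have hperiod : ∀ c, σf^[p] c = c := fun c => by
    rw [hσ]
    conv_rhs => rw [← QuotientGroup.out_eq' c]
    refine QuotientGroup.eq.2 ?_
    simp only [mul_inv_rev, inv_mul_cancel_right]
    exact inv_mem (mem_subgroupOf.2 (by simpa [z'] using hzp))
  have hinv : Function.Bijective σf :=
    ⟨Function.LeftInverse.injective (g := σf^[p - 1]) fun q => by
        rw [← Function.iterate_succ_apply, Nat.succ_eq_add_one, Nat.sub_add_cancel hp.out.one_le, hperiod],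
      fun q => ⟨σf^[p - 1] q, by
        rw [← Function.iterate_succ_apply' σf, Nat.succ_eq_add_one, Nat.sub_add_cancel hp.out.one_le, hperiod]⟩⟩
  have hpow : ∀ (n : ℕ) c, ((Equiv.ofBijective σf hinv) ^ n) c = σf^[n] c := by
    intro n c
    rw [Equiv.Perm.coe_pow]
    rfl
  have hne : ∀ c, σf c ≠ c := fun c e => hzT0 (by
    have h1 := hσ 1 c
    rw [Function.iterate_one, e, pow_one] at h1
    nth_rw 1 [← QuotientGroup.out_eq' c] at h1
    rw [QuotientGroup.eq, inv_mul_cancel_left, mem_subgroupOf] at h1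
    exact h1)
  refine HallWielandt.prod_eq_one_of_cycles (p := p) (Equiv.ofBijective σf hinv) F
    (fun c => (hpow p c).trans (hperiod c)) hne (fun c => ?_)
  simp only [hpow]
  have hoff : ∀ d : (S : Subgroup G) ⧸ T0', (d.out : G)⁻¹ * x * d.out ∉ T0 → F d = 1 := by
    intro d hd
    refine Finset.prod_eq_one fun t _ => ?_
    rw [hval _ (mul_mem d.out.2 (hT0S t.out.2)), dif_neg]
    intro h
    refine hd ?_
    have := mul_mem (mul_mem (t.out : T0).2 (hRT0 h)) (inv_mem (t.out : T0).2)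
    simpa [mul_assoc] using this
  let a : T0 →* T0 :=
    { toFun := fun r => ⟨z⁻¹ * r * z, hzN _ r.2⟩
      map_one' := Subtype.ext (by simp)
      map_mul' := fun a b => Subtype.ext (by simp [mul_assoc]) }
  have hait : ∀ (n : ℕ) (r : T0), (a^[n] r : G) = (z ^ n)⁻¹ * r * z ^ n := by
    intro n r
    induction n with
    | zero => simp
    | succ n ih =>
      rw [Function.iterate_succ_apply']
      show z⁻¹ * (a^[n] r : G) * z = _
      rw [ih, pow_succ]; group
  set s := (c.out : G)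
  -- representative-free value
  have hmove : ∀ n : ℕ, ∃ t : T0, ((σf^[n] c).out : G) = s * z ^ n * t := by
    intro n
    obtain ⟨⟨t, ht⟩, e⟩ := QuotientGroup.mk_out_eq_mul T0' (c.out * z' ^ n)
    refine ⟨⟨t, mem_subgroupOf.1 ht⟩, ?_⟩
    rw [hσ, e]
    simp [z', s]
  by_cases hu : s⁻¹ * x * s ∈ T0
  · have hterm : ∀ n : ℕ, F (σf^[n] c) = Ψ (a^[n] ⟨_, hu⟩) := by
      intro n
      obtain ⟨t, ht⟩ := hmove n
      have e : ((σf^[n] c).out : G)⁻¹ * x * (σf^[n] c).out =
          ((t⁻¹ * a^[n] ⟨_, hu⟩ * t : T0) : G) := by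
        simp [ht, hait, mul_assoc]
      rw [show F (σf^[n] c) = _ from hΨ _ (σf^[n] c).out.2 (by rw [e]; exact Subtype.mem _),
        show (⟨_, _⟩ : T0) = t⁻¹ * a^[n] ⟨_, hu⟩ * t from Subtype.ext e, map_mul, map_mul, map_inv,
        mul_right_comm, inv_mul_cancel, one_mul]
    have hkill : ∀ r : T0, Ψ ((fun y : T0 => y⁻¹ * a y)^[p - 1] r) = 1 := by
      intro r
      have hiter : ∀ n : ℕ, ((fun y : T0 => y⁻¹ * a y)^[n] r : G) =
          (fun y : G => y⁻¹ * z⁻¹ * y * z)^[n] (r : G) := by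
        intro n
        induction n with
        | zero => rfl
        | succ n ih =>
          rw [Function.iterate_succ_apply', Function.iterate_succ_apply', ← ih]
          simp [a, mul_assoc]
      let φ : Q →* T ⧸ K := (QuotientGroup.mk' K).comp (Subgroup.inclusion le_sup_right)
      have hcard : Nat.card (T ⧸ K) = p := by rw [← Subgroup.index_eq_card, hKi]
      have hφne : φ ⟨z, hzQ⟩ ≠ 1 := fun h => hzK ((QuotientGroup.eq_one_iff _).1 h)
      have hco : IsCoatom φ.ker := by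
        haveI : Fact (Nat.card (T ⧸ K)).Prime := ⟨hcard.symm ▸ hp.out⟩
        have hrange : φ.range = ⊤ := (Subgroup.eq_bot_or_eq_top_of_prime_card φ.range).resolve_left
          fun h => hφne (by
            have : φ ⟨z, hzQ⟩ ∈ φ.range := ⟨_, rfl⟩
            rwa [h, mem_bot] at this)
        have hidx : φ.ker.index = p := by
          rw [Subgroup.index_ker, hrange, Subgroup.card_top, hcard]
        refine ⟨fun h => hφne (by
          have : (⟨z, hzQ⟩ : Q) ∈ φ.ker := h ▸ Subgroup.mem_top _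
          exact this), fun L hL => ?_⟩
        have h1 : L.index ∣ p := hidx ▸ Subgroup.index_dvd_of_le hL.le
        refine Subgroup.index_eq_one.1 (((Nat.dvd_prime hp.out).1 h1).resolve_right fun h2 => ?_)
        have h3 := Subgroup.relIndex_mul_index hL.le
        rw [hidx, h2] at h3
        have h4 : φ.ker.relIndex L = 1 := by
          have := hp.out.pos
          nlinarith
        exact hL.not_ge (Subgroup.relIndex_eq_one.1 h4)
      have hmem : ∀ w : φ.ker, ((w : Q) : G) ∈ T0 := fun w =>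
        (hT0 _).2 ⟨mem_sup_right (w : Q).2, (QuotientGroup.eq_one_iff _).1 w.2⟩
      let ψ : φ.ker →* A := Ψ.comp
        { toFun := fun w => ⟨((w : Q) : G), hmem w⟩
          map_one' := rfl
          map_mul' := fun _ _ => rfl }
      set cc := (fun y : T0 => y⁻¹ * a y)^[p - 1] r
      have hcQ : (cc : G) ∈ Q := by
        rw [hiter]; exact iterate_comm_mem hSQ (hT0S r.2) hzQ
      have h1 : (fun y : G => y⁻¹ * z⁻¹ * y * z)^[p - 1] (r : G) ∈ φ.ker.map Q.subtype := by
        rw [← hiter]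
        exact ⟨⟨_, hcQ⟩, (QuotientGroup.eq_one_iff _).2 ((hT0 _).1 cc.2).2, rfl⟩
      obtain ⟨_, ⟨w, hw, rfl⟩, hwe⟩ := hgood _ (hT0S r.2) z hzQ φ.ker hco h1
      have h2 := hom_kills_frattini ψ hw
      rw [← hiter] at hwe
      rw [← h2]
      exact congrArg Ψ (Subtype.ext hwe.symm)
    have hsum := HallWielandt.sum_iterate_zero (p := p) a (fun r => Multiplicative.toAdd (Ψ r))
      (fun r t => by rw [map_mul, toAdd_mul])
      (fun r => by rw [nsmul_eq_mul, ZMod.natCast_self, zero_mul])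
      (fun r => by rw [hkill, toAdd_one]) ⟨_, hu⟩
    rw [← toAdd_prod, toAdd_eq_zero] at hsum
    exact (Finset.prod_congr rfl fun i _ => hterm i).trans hsum
  · refine Finset.prod_eq_one fun n _ => hoff _ fun h => hu ?_
    obtain ⟨t, ht⟩ := hmove n
    rw [ht] at h
    have h1 : (z ^ n)⁻¹ * (s⁻¹ * x * s) * z ^ n ∈ T0 := by
      have := mul_mem (mul_mem t.2 h) (inv_mem t.2)
      simpa [mul_assoc] using this
    have hback : ∀ (m : ℕ) (v : G), v ∈ T0 → (z ^ m)⁻¹ * v * z ^ m ∈ T0 := fun m v hv => by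
      have := (a^[m] ⟨v, hv⟩).2
      rwa [hait] at this
    have h2 := hback ((p - 1) * n) _ h1
    have h3 : z ^ n * z ^ ((p - 1) * n) = (z ^ p) ^ n := by
      rw [← pow_add, ← pow_mul]; congr 1
      have := hp.out.one_le
      calc n + (p - 1) * n = (p - 1 + 1) * n := by ring
        _ = p * n := by rw [Nat.sub_add_cancel this]
    have h4 : ((z ^ p) ^ n)⁻¹ * (s⁻¹ * x * s) * (z ^ p) ^ n ∈ T0 := by
      rw [← h3]; simpa [mul_assoc] using h2
    have h5 := mul_mem (mul_mem (pow_mem hzp n) h4) (inv_mem (pow_mem hzp n))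
    simpa [mul_assoc] using h5

/-- Control of transfer modulo Frattini. -/
theorem inf_commutator_le (S : Sylow p G) (Q : Subgroup G)
    (hQS : Q ≤ (S : Subgroup G)) (hSQ : (S : Subgroup G) ≤ normalizer (Q : Set G))
    (hwc : ∀ g : G, (∀ z ∈ Q, g * z * g⁻¹ ∈ (S : Subgroup G)) → g ∈ normalizer (Q : Set G))
    (h : IterGood p (S : Subgroup G) Q) :
    (S : Subgroup G) ⊓ commutator G ≤ (frattini (S : Subgroup G)).map (S : Subgroup G).subtype ⊔
      ⁅normalizer (Q : Set G), normalizer (Q : Set G)⁆ := by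
  intro y hy
  by_contra hyL
  set M := normalizer (Q : Set G)
  obtain ⟨θ, hθy⟩ := HallWielandt.exists_functional S M hSQ hy.1 hyL
  obtain ⟨⟨x, hx⟩, ⟨hxG, hxθ⟩, hxmin⟩ := (Set.toFinite {z : (S : Subgroup G) |
      (z : G) ∈ commutator G ∧ θ ⟨z, hSQ z.2⟩ ≠ 1}).exists_minimalFor
    (fun z : (S : Subgroup G) => orderOf (z : G)) _ ⟨⟨y, hy.1⟩, hy.2, hθy⟩
  have hsmall : ∀ (u : G) (huM : u ∈ M), u ∈ commutator G → (∃ j : ℕ, u ^ p ^ j = 1) →
      orderOf u < orderOf x → θ ⟨u, huM⟩ = 1 := by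
    intro u huM huG ⟨j, hj⟩ hlt
    by_contra hne
    obtain ⟨i, -, hi⟩ := (Nat.dvd_prime_pow hp.out).1 (orderOf_dvd_of_pow_eq_one hj)
    obtain ⟨T, hT⟩ := (IsPGroup.of_card (p := p) (n := i)
      (show Nat.card (zpowers (⟨u, huM⟩ : M)) = p ^ i by
        rw [Nat.card_zpowers, Subgroup.orderOf_mk, hi])).exists_le_sylow
    obtain ⟨m, hm⟩ := MulAction.exists_smul_eq M T (S.subtype hSQ)
    have hin : m * ⟨u, huM⟩ * m⁻¹ ∈ ((S.subtype hSQ : Sylow p M) : Subgroup M) := by
      rw [← hm, Sylow.coe_subgroup_smul]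
      exact smul_mem_pointwise_smul _ (MulAut.conj m) _ (hT (mem_zpowers _))
    rw [Sylow.coe_subtype, mem_subgroupOf] at hin
    have hord : orderOf ((m : G) * u * (m : G)⁻¹) = orderOf u :=
      orderOf_injective (MulAut.conj (m : G)).toMonoidHom (MulAut.conj (m : G)).injective u
    refine absurd (hxmin (j := ⟨_, hin⟩) ⟨?_, ?_⟩ (by show orderOf ((m : G) * u * (m : G)⁻¹) ≤ _; rw [hord]; exact hlt.le)) ?_
    · exact Subgroup.Normal.conj_mem inferInstance u huG m
    · show θ (m * ⟨u, huM⟩ * m⁻¹) ≠ 1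
      rwa [map_mul, map_mul, map_inv, mul_inv_cancel_comm]
    · show ¬ orderOf x ≤ orderOf ((m : G) * u * (m : G)⁻¹)
      rw [hord]; exact hlt.not_ge
  obtain ⟨j, hj⟩ := S.isPGroup' ⟨x, hx⟩
  have hxj : x ^ p ^ j = 1 := congrArg Subtype.val hj
  letI := Fintype.ofFinite (G ⧸ M)
  have hvan : ∀ (k : ℕ) (a : G) (h : a⁻¹ * x ^ k * a ∈ M), p ∣ k → θ ⟨_, h⟩ = 1 := by
    intro k a h hk
    have hconj : ∀ n : ℕ, (a⁻¹ * x ^ k * a) ^ n = a⁻¹ * (x ^ k) ^ n * a := fun n => by
      have := conj_pow (i := n) (a := a⁻¹) (b := x ^ k)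
      rwa [inv_inv] at this
    have hord : orderOf (a⁻¹ * x ^ k * a) = orderOf (x ^ k) := by
      have := orderOf_injective (MulAut.conj a⁻¹).toMonoidHom (MulAut.conj a⁻¹).injective (x ^ k)
      simpa using this
    refine hsmall _ h ?_ ⟨j, ?_⟩ ?_
    · have := Subgroup.Normal.conj_mem (inferInstance : (commutator G).Normal) _ (pow_mem hxG k) a⁻¹
      rwa [inv_inv] at this
    · rw [hconj, ← pow_mul, mul_comm, pow_mul, hxj, one_pow]; simp
    · rw [hord]
      refine lt_of_le_of_ne (Nat.le_of_dvd (orderOf_pos x) (orderOf_pow_dvd k)) fun e => ?_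
      rw [orderOf_pow] at e
      obtain ⟨i, -, hi⟩ := (Nat.dvd_prime_pow hp.out).1 (orderOf_dvd_of_pow_eq_one hxj)
      have hi0 : i ≠ 0 := fun e0 => hxθ (by
        rw [e0, pow_zero, orderOf_eq_one_iff] at hi
        subst hi
        exact map_one θ)
      have hdiv : p ∣ Nat.gcd (orderOf x) k := Nat.dvd_gcd (hi.symm ▸ dvd_pow_self p hi0) hk
      have h5 : orderOf x / Nat.gcd (orderOf x) k < orderOf x := Nat.div_lt_self (orderOf_pos x)
        (lt_of_lt_of_le hp.out.one_lt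
          (Nat.le_of_dvd (Nat.gcd_pos_of_pos_left _ (orderOf_pos x)) hdiv))
      exact h5.ne e
  have hv : MonoidHom.transfer θ x = 1 :=
    (Abelianization.commutator_subset_ker (MonoidHom.transfer θ)) hxG
  rw [HallWielandt.transfer_eq_prod_fixed θ x ⟨j, hxj⟩ hvan] at hv
  letI := Fintype.ofFinite (Quotient (MulAction.orbitRel (S : Subgroup G) (G ⧸ M)))
  let π : G ⧸ M → Quotient (MulAction.orbitRel (S : Subgroup G) (G ⧸ M)) := Quotient.mk''
  set q0 : G ⧸ M := ((1 : G) : G ⧸ M)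
  have hq0 : ∀ q, π q = π q0 → q = q0 := by
    intro q hq
    obtain ⟨s, hs⟩ := (Quotient.eq''.1 hq : q ∈ MulAction.orbit (S : Subgroup G) q0)
    rw [← hs]
    refine QuotientGroup.eq.2 ?_
    simpa using inv_mem (hSQ s.2)
  rw [← Finset.prod_fiberwise Finset.univ π, Finset.prod_eq_single (π q0)] at hv
  rotate_left
  · intro o _ ho
    set q1 := o.out
    set g := q1.out
    have hg : (g : G ⧸ M) = q1 := QuotientGroup.out_eq' q1
    set R : Subgroup G := (S : Subgroup G) ⊓ M.map (MulAut.conj g).toMonoidHom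
    have hR : ∀ s : G, s ∈ R ↔ s ∈ (S : Subgroup G) ∧ g⁻¹ * s * g ∈ M := by
      intro s
      refine ⟨fun ⟨hs, m, hm, he⟩ => ⟨hs, ?_⟩, fun ⟨hs, hsm⟩ => ⟨hs, _, hsm, by simp [mul_assoc]⟩⟩
      rw [← he]; simpa [mul_assoc] using hm
    have hQR : ¬ Q ≤ R := by
      intro hle
      have hQp : IsPGroup p ((Q.map (MulAut.conj g⁻¹).toMonoidHom).subgroupOf M) :=
        ((S.isPGroup'.to_le hQS).map _).comap_of_injective M.subtype M.subtype_injective
      obtain ⟨T, hT⟩ := hQp.exists_le_sylow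
      obtain ⟨m, hm⟩ := MulAction.exists_smul_eq M T (S.subtype hSQ)
      have hmem := hwc ((m : G) * g⁻¹) (fun z hz => by
        have hzM : g⁻¹ * z * g ∈ M := ((hR z).1 (hle hz)).2
        have h1 : (⟨_, hzM⟩ : M) ∈ (T : Subgroup M) := hT ⟨z, hz, by simp⟩
        have h2 : m * ⟨_, hzM⟩ * m⁻¹ ∈ ((S.subtype hSQ : Sylow p M) : Subgroup M) := by
          rw [← hm, Sylow.coe_subgroup_smul]
          exact smul_mem_pointwise_smul _ (MulAut.conj m) _ h1
        rw [Sylow.coe_subtype, mem_subgroupOf] at h2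
        simpa [mul_assoc] using h2)
      have hgM : g⁻¹ ∈ M := by
        have := M.mul_mem (M.inv_mem m.2) hmem
        rwa [inv_mul_cancel_left] at this
      refine ho ?_
      rw [← Quotient.out_eq' o]
      show π q1 = π q0
      exact congrArg π (hg.symm.trans (QuotientGroup.eq.2 (by simpa using hgM)))
    have hfe : Finset.univ.filter (fun q : G ⧸ M => π q = o) =
        Finset.univ.filter (fun q : G ⧸ M => q ∈ MulAction.orbit (S : Subgroup G) (g : G ⧸ M)) := by
      refine Finset.filter_congr fun q _ => ?_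
      rw [hg, ← MulAction.orbitRel_apply, ← Quotient.eq'']
      exact ⟨fun hq => hq.trans (Quotient.out_eq' o).symm, fun hq => hq.trans (Quotient.out_eq' o)⟩
    rw [hfe]
    exact orbit_prod_one S Q M θ g x hQS hSQ hx hvan h hQR
  · intro hn
    exact absurd (Finset.mem_univ _) hn
  refine hxθ ?_
  rw [show Finset.univ.filter (fun q => π q = π q0) = {q0} by
    ext q; simp only [Finset.mem_filter, Finset.mem_univ, true_and, Finset.mem_singleton]
    exact ⟨hq0 q, fun e => by rw [e]⟩, Finset.prod_singleton,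
    Cfsg.Lib.Yoshida.fixedVal_mk, dif_pos (by simpa using hSQ hx)] at hv
  simpa using hv

/-- Control of transfer by the normalizer of the weakly closed subgroup. -/
theorem inf_commutator_le_normalizer (S : Sylow p G) (Q : Subgroup G)
    (hQS : Q ≤ (S : Subgroup G)) (hSQ : (S : Subgroup G) ≤ normalizer (Q : Set G))
    (hwc : ∀ g : G, (∀ z ∈ Q, g * z * g⁻¹ ∈ (S : Subgroup G)) → g ∈ normalizer (Q : Set G))
    (h : IterGood p (S : Subgroup G) Q) :
    (S : Subgroup G) ⊓ commutator G ≤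
      ⁅normalizer (Q : Set G), normalizer (Q : Set G)⁆ := by
  set M := normalizer (Q : Set G)
  have hres := HallWielandt.inf_pResidual_le S Q hQS hSQ (inf_commutator_le S Q hQS hSQ hwc h)
  haveI := Transfer.pResidual_normal (G := G) p
  set N := Cfsg.pResidual p G
  have hS' : ⁅(S : Subgroup G), (S : Subgroup G)⁆ ≤ ⁅M, M⁆ := Subgroup.commutator_mono hSQ hSQ
  have htop : (⊤ : Subgroup G).map (QuotientGroup.mk' N) =
      (S : Subgroup G).map (QuotientGroup.mk' N) := by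
    rw [← Transfer.pResidual_sup_sylow S, Subgroup.map_sup, QuotientGroup.map_mk'_self, bot_sup_eq]
  rintro y ⟨hyS, hyG⟩
  have h1 : QuotientGroup.mk' N y ∈ (⁅(S : Subgroup G), (S : Subgroup G)⁆).map (QuotientGroup.mk' N) := by
    rw [Subgroup.map_commutator, ← htop, ← Subgroup.map_commutator, ← _root_.commutator_def]
    exact ⟨y, hyG, rfl⟩
  obtain ⟨c, hc, hce⟩ := h1
  have hcS : c ∈ (S : Subgroup G) := Subgroup.commutator_le_self _ hc
  have h2 : c⁻¹ * y ∈ (S : Subgroup G) ⊓ N := ⟨Subgroup.mul_mem _ (Subgroup.inv_mem _ hcS) hyS, QuotientGroup.eq.1 hce⟩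
  obtain ⟨m, hm, hme⟩ := hres h2
  have hd : ((m : G)) ∈ ⁅M, M⁆ := by
    set d := Nat.card M / p ^ (Nat.card M).factorization p
    let f : M →* Abelianization M := (powMonoidHom d).comp Abelianization.of
    have hfd : ∀ v : M, (orderOf v).Coprime p → f v = 1 := fun v hv => by
      show (Abelianization.of v) ^ d = 1
      rw [← map_pow]
      have h3 : orderOf v ∣ d := by
        have h4 : orderOf v ∣ p ^ (Nat.card M).factorization p * d := by
          rw [Nat.mul_div_cancel' (Nat.ordProj_dvd _ _)]; exact orderOf_dvd_natCard v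
        exact (Nat.Coprime.pow_right _ hv).dvd_of_dvd_mul_left h4
      rw [orderOf_dvd_iff_pow_eq_one.1 h3, map_one]
    have hker : Cfsg.pResidual p M ≤ f.ker := (Subgroup.closure_le _).2 fun v hv => hfd v hv
    have hf : (Abelianization.of m) ^ d = 1 := hker hm
    have hmS : (m : G) ∈ (S : Subgroup G) := by
      rw [show (m : G) = c⁻¹ * y from hme]; exact h2.1
    obtain ⟨j, hj⟩ := S.isPGroup' ⟨(m : G), hmS⟩
    have hj' : m ^ p ^ j = 1 := Subtype.ext (by simpa using congrArg Subtype.val hj)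
    have hco : Nat.Coprime d (p ^ j) :=
      (Nat.coprime_ordCompl hp.out Nat.card_pos.ne').symm.pow_right j
    have h5 : orderOf (Abelianization.of m) ∣ 1 := hco ▸ Nat.dvd_gcd (orderOf_dvd_of_pow_eq_one hf)
      (orderOf_dvd_of_pow_eq_one (by rw [← map_pow, hj', map_one]))
    have h6 : m ∈ _root_.commutator M := by
      rw [← Abelianization.ker_of, MonoidHom.mem_ker]
      exact orderOf_eq_one_iff.1 (Nat.dvd_one.1 h5)
    rw [← Subgroup.map_subtype_commutator]
    exact ⟨m, h6, rfl⟩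
  have hme' : (m : G) = c⁻¹ * y := hme
  rw [show y = c * (c⁻¹ * y) by group, ← hme']
  exact mul_mem (hS' hc) hd

end Cfsg.Lib.Transfer.WCIter
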